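import Cfsg.Agent.CycG.Full
import Cfsg.Agent.CycG.PrinData
import Cfsg.Agent.BT.Small

/-!
Blocks with a defect group of order `p`: existence and values.
-/

set_option autoImplicit false
set_option linter.unusedSectionVars false

open scoped ComplexConjugate

namespace Cfsg.Agent.BT

open Cfsg Subgroup Cfsg.Agent.BR Cfsg.Agent.CycG Cfsg.Agent.Blk Cfsg.Agent.BlkInd Cfsg.Agent.BlkC
open Cfsg.Agent.CharBase (oneIrr)

universe u

section

variable {G : Type u} [Group G] [Fintype G] {p : ℕ} [hp : Fact p.Prime] {M : Ideal AlgInt}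
  {P : Subgroup G}

/-- the block of a character of degree prime to `p`. -/
theorem exists_blk (hP : Sp p P) (hM : IsPModular p M) {C : Subgroup G}
    (hC : C = centralizer (P : Set G)) (ζ : IrrCharacter G)
    (hζ : ¬ p ∣ dg ζ) : ∃ (B : Set (IrrCharacter G)) (b : Set (IrrCharacter C)),
      ζ ∈ B ∧ IsDefectGroup p M B P ∧ IsInducedBlock M C b B := by
  classical
  have := hM.2.1.isPrime
  have hB : IsPBlock M (blockOf M (ζ : G → ℂ)) := isPBlock_blockOf ζ
  have hζB : ζ ∈ blockOf M (ζ : G → ℂ) := mem_blockOf_self ζ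
  obtain ⟨D, hD⟩ := exists_defectGroup hM hB
  have h1 := card_defectGroup hM hB hD
  have h2 := defect_add_nuMin (p := p) (block_nonempty hB)
  have h3 : nuMin p (blockOf M (ζ : G → ℂ)) = 0 := by
    have h4 := nuMin_le (p := p) hζB
    have h5 : nu p ζ = 0 := Nat.factorization_eq_zero_of_not_dvd hζ
    omega
  have h4 : (Nat.card G).factorization p = 1 := by
    have h5 := P.card_mul_index
    rw [← h5, hP.card, Nat.factorization_mul hp.out.ne_zero (Subgroup.index_ne_zero_of_finite),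
      Finsupp.add_apply, hp.out.factorization_self,
      Nat.factorization_eq_zero_of_not_dvd hP.idx]
  rw [h3, add_zero, h4] at h2
  rw [h2, pow_one] at h1
  have hDp : IsPGroup p D := IsPGroup.of_card (n := 1) (by rw [h1, pow_one])
  have hDi : ¬ p ∣ D.index := by
    intro h
    have h5 := P.card_mul_index
    have h6 := D.card_mul_index
    rw [hP.card] at h5
    rw [h1, ← h5] at h6
    have h7 := Nat.eq_of_mul_eq_mul_left hp.out.pos h6
    exact hP.idx (h7 ▸ h)
  obtain ⟨y, hy⟩ := MulAction.exists_smul_eq G (hDp.toSylow hDi) hP.syl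
  have h6 := isDefectGroup_conj hD y
  have h7 : D.map (MulAut.conj y).toMonoidHom = P := by
    rw [← hP.syl_coe, ← hy]
    rfl
  rw [h7] at h6
  obtain ⟨g, hg, hS⟩ := h6
  have hSy : SylC p g P := hS
  obtain ⟨b, hb⟩ := exists_block_of_br hM hSy.isPGroup (H := C)
    (by rw [hC]; exact le_centralizer_of_prime hP.card) hC.ge
    (by rw [hC]; exact Subgroup.centralizer_le_normalizer _) hB hSy.mem_centralizer hg.2.1
  exact ⟨_, b, hζB, ⟨g, hg, hS⟩, hb⟩

/-- the stabilizer of a block of `C_G(P)`. -/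
theorem exists_stab {C : Subgroup G} (hC : C = centralizer (P : Set G))
    (b : Set (IrrCharacter C)) : ∃ T : Subgroup G,
      ∀ g, g ∈ T ↔ g ∈ normalizer (P : Set G) ∧ StabilizesBlock C b g := by
  classical
  have hNC : normalizer (P : Set G) ≤ normalizer (C : Set G) := by
    rw [hC]; exact normalizer_le_normalizer_centralizer P
  have key : ∀ g ∈ normalizer (P : Set G), StabilizesBlock C b g ↔ ∀ χ ∈ b, cjI g χ ∈ b := by
    intro g hg
    constructor
    · rintro ⟨-, h⟩ χ hχ
      obtain ⟨χ', hχ', h2⟩ := h χ hχ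
      rw [isConjCharOf_cjI (hNC hg)] at h2
      rw [← h2]; exact hχ'
    · intro h
      exact ⟨hNC hg, fun χ hχ => ⟨cjI g χ, h χ hχ, (isConjCharOf_cjI (hNC hg) _ _).2 rfl⟩⟩
  refine ⟨{ carrier := {g | g ∈ normalizer (P : Set G) ∧ StabilizesBlock C b g}
            one_mem' := ?_
            mul_mem' := ?_
            inv_mem' := ?_ }, fun g => Iff.rfl⟩
  · rintro g h ⟨hg, hg'⟩ ⟨hh, hh'⟩
    refine ⟨Subgroup.mul_mem _ hg hh, ?_⟩
    rw [key _ (Subgroup.mul_mem _ hg hh)]
    intro χ hχ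
    rw [cjI_mul (hNC hg) (hNC hh)]
    exact (key g hg).1 hg' _ ((key h hh).1 hh' χ hχ)
  · refine ⟨Subgroup.one_mem _, ?_⟩
    rw [key _ (Subgroup.one_mem _)]
    intro χ hχ
    rw [cjI_one]; exact hχ
  · rintro g ⟨hg, hg'⟩
    refine ⟨Subgroup.inv_mem _ hg, ?_⟩
    rw [key _ (Subgroup.inv_mem _ hg)]
    have h1 : ∀ n : ℕ, ∀ χ ∈ b, cjI (g ^ n) χ ∈ b := by
      intro n
      induction n with
      | zero => intro χ hχ; rw [pow_zero, cjI_one]; exact hχ
      | succ n ih =>
        intro χ hχ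
        rw [pow_succ, cjI_mul (hNC (Subgroup.pow_mem _ hg n)) (hNC hg)]
        exact ih _ ((key g hg).1 hg' χ hχ)
    have h2 : g⁻¹ = g ^ (orderOf g - 1) := by
      apply inv_eq_of_mul_eq_one_left
      rw [← pow_succ, Nat.sub_add_cancel (orderOf_pos g), pow_orderOf_eq_one]
    rw [h2]
    exact h1 _

end

end Cfsg.Agent.BT
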