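import Cfsg.Agent.BT.PM2A

/-!
Blocks with a defect group of order `p`: values via sums over the normalizer.
-/

set_option autoImplicit false
set_option linter.unusedSectionVars false

open scoped ComplexConjugate

namespace Cfsg.Agent.BT

open Cfsg Subgroup Cfsg.Agent.BR Cfsg.Agent.CycG Cfsg.Agent.Blk Cfsg.Agent.BlkInd Cfsg.Agent.BlkC
open Cfsg.Agent.CharBase (oneIrr)

universe u

section

variable {G : Type u} [Group G] [Fintype G]

open Classical in
/-- extension by zero. -/
noncomputable def ex {C : Subgroup G} (χ : IrrCharacter C) (g : G) : ℂ :=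
  if h : g ∈ C then (χ : C → ℂ) ⟨g, h⟩ else 0

theorem ex_coe {C : Subgroup G} (χ : IrrCharacter C) (c : C) : ex χ (c : G) = (χ : C → ℂ) c := by
  unfold ex
  rw [dif_pos c.2]

theorem ex_of_mem {C : Subgroup G} (χ : IrrCharacter C) {g : G} (h : g ∈ C) :
    ex χ g = (χ : C → ℂ) ⟨g, h⟩ := by
  unfold ex
  rw [dif_pos h]

theorem ex_of_notMem {C : Subgroup G} (χ : IrrCharacter C) {g : G} (h : g ∉ C) :
    ex χ g = 0 := by
  unfold ex
  rw [dif_neg h]

theorem ex_cjI {C : Subgroup G} (χ : IrrCharacter C) {t : G} (ht : t ∈ normalizer (C : Set G))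
    (g : G) : ex (cjI t χ) g = ex χ (t⁻¹ * g * t) := by
  by_cases hg : g ∈ C
  · have h1 : t⁻¹ * g * t ∈ C := by
      have := (Subgroup.mem_normalizer_iff.1 (Subgroup.inv_mem _ ht) g).1 hg
      simpa using this
    rw [ex_of_mem _ hg, ex_of_mem _ h1]
    exact cjI_apply ht χ ⟨_, h1⟩ ⟨g, hg⟩ (by simp; group)
  · have h1 : t⁻¹ * g * t ∉ C := by
      intro h
      apply hg
      have := (Subgroup.mem_normalizer_iff.1 ht _).1 h
      have e : t * (t⁻¹ * g * t) * t⁻¹ = g := by group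
      rwa [e] at this
    rw [ex_of_notMem _ hg, ex_of_notMem _ h1]

theorem ex_conj {C : Subgroup G} (χ : IrrCharacter C) {t : G} (ht : t ∈ C) (g : G) :
    ex χ (t * g * t⁻¹) = ex χ g := by
  have h := ex_cjI χ (t := t⁻¹) (Subgroup.le_normalizer (C.inv_mem ht)) g
  rw [cjI_of_mem (C.inv_mem ht), inv_inv] at h
  exact h.symm

variable {p : ℕ} [hp : Fact p.Prime] {M : Ideal AlgInt} {P C T : Subgroup G}
  {b : Set (IrrCharacter C)} {B : Set (IrrCharacter G)}

/-- the value of a character as a sum over the normalizer. -/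
theorem val_sum (hP : Sp p P) (hM : IsPModular p M) (hC : C = centralizer (P : Set G))
    (hBD : IsDefectGroup p M B P) (hind : IsInducedBlock M C b B)
    (hT : ∀ g, g ∈ T ↔ g ∈ normalizer (P : Set G) ∧ StabilizesBlock C b g)
    [Fintype (normalizer (P : Set G))]
    {ψ : IrrCharacter G} (hψ : ψ ∈ B) {φ : G → ℂ}
    (hφ : ∀ c : C, p ∣ orderOf c → blockPart b (fun c : C => (ψ : G → ℂ) c) c = φ c)
    (h : C) (hs : Sup p P (h : G)) :
    (Nat.card T : ℂ) * (ψ : G → ℂ) h = ∑ u : normalizer (P : Set G), φ (u * h * (u : G)⁻¹) := by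
  classical
  haveI : Fintype C := Fintype.ofFinite C
  have hPp : IsPGroup p P := IsPGroup.of_card (n := 1) (by rw [hP.card, pow_one])
  have hPC : P ≤ C := by rw [hC]; exact le_centralizer_of_prime hP.card
  have hNC : normalizer (P : Set G) ≤ normalizer (C : Set G) := by
    rw [hC]; exact normalizer_le_normalizer_centralizer P
  have hPbot : P ≠ ⊥ := by
    rintro rfl
    have := hP.card
    rw [Subgroup.card_bot] at this
    exact hp.out.one_lt.ne this
  rw [card_mul_value hM hPp hPC hC hBD hind hT hψ h hs]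
  have h1 : ∑ u : normalizer (P : Set G), φ (u * h * (u : G)⁻¹) =
      ∑ u : G, if u ∈ normalizer (P : Set G) then φ (u * h * u⁻¹) else 0 := by
    rw [← Finset.sum_filter]
    exact (Finset.sum_subtype (Finset.univ.filter (· ∈ normalizer (P : Set G))) (by simp)
      (fun u => φ (u * h * u⁻¹))).symm
  rw [h1]
  refine Finset.sum_congr rfl fun u _ => ?_
  by_cases hu : u ∈ normalizer (P : Set G)
  · rw [dif_pos (hNC hu), if_pos hu, if_pos hu, hφ, normConj_coe]
    rw [MulEquiv.orderOf_eq, ← Subgroup.orderOf_coe]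
    exact hs.dvd_orderOf hp.out hPbot
  · rw [if_neg hu]
    split_ifs <;> rfl

/-- nonexceptional characters. -/
theorem val_nonexc [Fintype C] (hP : Sp p P) (hM : IsPModular p M) (hBD : IsDefectGroup p M B P)
    {χ1 : IrrCharacter C} (d : CycDat p M P P C T b B χ1)
    {θ : IrrCharacter C → IrrCharacter G} {ε : IrrCharacter G → ℤ} {δ : ℤ}
    (o : CycOut p T b B χ1 θ ε δ) [Fintype (normalizer (P : Set G))]
    {ψ : IrrCharacter G} (hψ : ψ ∈ B) (hne : ¬ Exc b χ1 θ ψ) (h : C) (hs : Sup p P (h : G)) :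
    (Nat.card T : ℂ) * (ψ : G → ℂ) h =
      ε ψ * ∑ u : normalizer (P : Set G), ex χ1 (u * h * (u : G)⁻¹) := by
  classical
  have hC := d.hC
  rw [val_sum hP hM hC hBD d.ind d.mem_T hψ (φ := fun g => ε ψ * ex χ1 g) (fun c hc => by
    rw [ex_coe]
    exact d.blockPart_nonexc hM o hψ hne hc) h hs, Finset.mul_sum]

/-- exceptional characters. -/
theorem val_exc [Fintype C] (hP : Sp p P) (hM : IsPModular p M) (hBD : IsDefectGroup p M B P)
    {χ1 : IrrCharacter C} (d : CycDat p M P P C T b B χ1)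
    {θ : IrrCharacter C → IrrCharacter G} {ε : IrrCharacter G → ℤ} {δ : ℤ}
    (o : CycOut p T b B χ1 θ ε δ) [Fintype (normalizer (P : Set G))]
    {χ0 : IrrCharacter C} (hχ0 : χ0 ∈ b) (h01 : χ0 ≠ χ1) (h : C) (hs : Sup p P (h : G)) :
    (Nat.card C : ℂ) * (θ χ0 : G → ℂ) h =
      - δ * ∑ u : normalizer (P : Set G), ex χ0 (u * h * (u : G)⁻¹) := by
  classical
  haveI := hM.2.1.isPrime
  have hC := d.hC
  set O := (Bfin b).filter (fun χ => ∃ t ∈ T, cjI t χ0 = χ) with hO
  have hTN : T ≤ normalizer (P : Set G) := fun t ht => ((d.mem_T t).1 ht).1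
  have hNC : normalizer (P : Set G) ≤ normalizer (C : Set G) := by
    rw [hC]; exact normalizer_le_normalizer_centralizer P
  have h1 := val_sum hP hM hC hBD d.ind d.mem_T (o.mem χ0 hχ0 h01)
    (φ := fun g => - (δ : ℂ) * ∑ χ ∈ O, ex χ g) (fun c hc => by
    rw [d.blockPart_exc hM o hχ0 h01 hc]
    congr 1
    exact Finset.sum_congr rfl fun χ _ => (ex_coe χ c).symm) h hs
  have h2 : ∀ χ ∈ O, ∑ u : normalizer (P : Set G), ex χ (u * h * (u : G)⁻¹) =
      ∑ u : normalizer (P : Set G), ex χ0 (u * h * (u : G)⁻¹) := by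
    intro χ hχ
    obtain ⟨-, t, ht, rfl⟩ := Finset.mem_filter.1 hχ
    have htN := hTN ht
    refine Fintype.sum_equiv (Equiv.mulLeft (⟨t, htN⟩ : normalizer (P : Set G))⁻¹) _ _ fun u => ?_
    rw [ex_cjI χ0 (hNC htN)]
    congr 1
    simp only [Equiv.coe_mulLeft, Subgroup.coe_mul, Subgroup.coe_inv]
    group
  rw [← Finset.mul_sum, Finset.sum_comm, Finset.sum_congr rfl h2, Finset.sum_const,
    d.card_orbit hχ0 h01, nsmul_eq_mul] at h1
  have h3 : (Nat.card T : ℂ) = (Nat.card C : ℂ) * C.relIndex T := by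
    rw [← CycDat.relIndex_mul_card d.C_le_T]; push_cast; ring
  have h4 : (C.relIndex T : ℂ) ≠ 0 := by
    intro h
    have h5 : C.relIndex T = 0 := by exact_mod_cast h
    have h6 := CycDat.relIndex_mul_card d.C_le_T
    rw [h5, mul_zero] at h6
    exact Nat.card_pos.ne h6
  rw [h3] at h1
  apply mul_left_cancel₀ h4
  linear_combination h1

end

end Cfsg.Agent.BT
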