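import Cfsg.Agent.BT.PM2B
import Cfsg.Agent.BT.PSolvDeg2
import Cfsg.Agent.H33.CycPSolv
import Cfsg.Agent.Char.BrauerR

/-!
A faithful character of degree `p - 2`: structure of the normalizer.
-/

set_option autoImplicit false
set_option linter.unusedSectionVars false

open scoped ComplexConjugate

namespace Cfsg.Agent.BT

open Cfsg Subgroup Cfsg.Agent.BR Cfsg.Agent.CycG Cfsg.Agent.Blk Cfsg.Agent.BlkInd Cfsg.Agent.BlkC
open Cfsg.Agent.CharBase (oneIrr)

universe u

/-! ### arithmetic -/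

theorem pm2_arith1 {p m n j : ℕ} (hp5 : 5 < p) (hn : n ∣ p - 1) (h : p * j + 2 = p + m * n)
    (hmj : m ≤ j) (hm : 1 ≤ m) : (m = 1 ∧ n = 2 ∧ j = 1) ∨ j + 2 = p := by
  rcases Nat.lt_or_ge j 2 with hj | hj
  · left
    have h1 : j = 0 ∨ j = 1 := by omega
    rcases h1 with rfl | rfl
    · omega
    · have hm1 : m = 1 := by omega
      subst hm1
      refine ⟨rfl, by omega, rfl⟩
  · right
    obtain ⟨k, hk⟩ := hn
    have hk0 : k ≠ 0 := by rintro rfl; omega
    have h1 : m * n ≤ j * n := Nat.mul_le_mul_right _ hmj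
    have hk1 : k = 1 := by
      by_contra hne
      have hk2 : 2 ≤ k := by omega
      have h2 : n * 2 ≤ n * k := Nat.mul_le_mul_left _ hk2
      have h3 : 2 * n ≤ p - 1 := by omega
      have h4 : j * (2 * n) ≤ j * (p - 1) := Nat.mul_le_mul_left _ h3
      obtain ⟨q, rfl⟩ : ∃ q, p = q + 1 := ⟨p - 1, by omega⟩
      simp only [Nat.add_sub_cancel] at h4
      have h5 : j * (2 * n) = 2 * (j * n) := by ring
      rw [h5] at h4
      nlinarith
    rw [hk1, mul_one] at hk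
    obtain ⟨q, rfl⟩ : ∃ q, p = q + 1 := ⟨p - 1, by omega⟩
    simp only [Nat.add_sub_cancel] at hk
    subst hk
    -- (q+1) j + 2 = q + 1 + m q
    obtain ⟨i, rfl⟩ : ∃ i, j = m + i := ⟨j - m, by omega⟩
    have h2 : m + 1 + q * i + i = q := by nlinarith
    rcases Nat.eq_zero_or_pos i with hi | hi
    · subst hi; omega
    · have : q * 1 ≤ q * i := Nat.mul_le_mul_left _ hi
      omega

theorem pm2_arith2 {p m n j : ℕ} (hp5 : 5 < p) (hn : n ∣ p - 1) (h : p * j + 2 + m * n = p) :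
    n = 1 := by
  have hj : j = 0 := by
    rcases Nat.eq_zero_or_pos j with h1 | h1
    · exact h1
    · have : p * 1 ≤ p * j := Nat.mul_le_mul_left _ h1
      omega
  subst hj
  have h1 : n ∣ p - 2 := ⟨m, by rw [mul_comm n m]; omega⟩
  have h2 : n ∣ (p - 1) - (p - 2) := Nat.dvd_sub hn h1
  have h3 : (p - 1) - (p - 2) = 1 := by omega
  rw [h3] at h2
  exact Nat.dvd_one.mp h2

section

variable {G : Type u} [Group G] [Fintype G] {p : ℕ} [hp : Fact p.Prime] {P C : Subgroup G}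

/-- `P` acts by scalars. -/
theorem exists_lam (hP : Sp p P) (hC : C = centralizer (P : Set G)) (χ0 : IrrCharacter C) :
    ∃ lam : P →* ℂ, ∀ (x : P) (c : G), c ∈ C → ex χ0 (x * c) = lam x * ex χ0 c := by
  have hPC : P ≤ C := by rw [hC]; exact le_centralizer_of_prime hP.card
  haveI : Fintype C := Fintype.ofFinite C
  have h0 : (χ0 : C → ℂ) 1 ≠ 0 := CharBase.irr_one_ne_zero χ0.2
  have hcen : ∀ x : P, (⟨x, hPC x.2⟩ : C) ∈ center C := fun x =>
    subgroupOf_le_center hC (Subgroup.mem_subgroupOf.2 x.2)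
  have key : ∀ (x : P) (c : C), (χ0 : C → ℂ) (c * ⟨x, hPC x.2⟩) =
      (χ0 : C → ℂ) ⟨x, hPC x.2⟩ / (χ0 : C → ℂ) 1 * (χ0 : C → ℂ) c := by
    intro x c
    have h1 := mul_central χ0 (hcen x) c
    field_simp
    linear_combination h1
  refine ⟨{ toFun := fun x => (χ0 : C → ℂ) ⟨x, hPC x.2⟩ / (χ0 : C → ℂ) 1
            map_one' := ?_
            map_mul' := ?_ }, ?_⟩
  · exact div_self h0
  · intro x y
    have h1 := key y ⟨x, hPC x.2⟩
    have e : (⟨((x * y : P) : G), hPC (x * y).2⟩ : C) = ⟨x, hPC x.2⟩ * ⟨y, hPC y.2⟩ := rfl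
    rw [e, h1]
    ring
  · intro x c hc
    have e : (x : G) * c = ((⟨c, hc⟩ * ⟨x, hPC x.2⟩ : C) : G) := by
      have := (Subgroup.mem_center_iff.1 (hcen x)) ⟨c, hc⟩
      rw [this]; rfl
    rw [e, ex_coe, key, ex_of_mem χ0 hc]
    rfl

/-- the restricted linear character is faithful. -/
theorem lam_ne (hP : Sp p P) [Fintype P] {lam : P →* ℂ} (hs : ∑ x : P, lam x = 0) {y : P}
    (hy : y ≠ 1) : lam y ≠ 1 := by
  intro h
  have hy1 : (y : G) ≠ 1 := fun h => hy (Subtype.ext h)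
  have h1 : ∀ x : P, lam x = 1 := by
    intro x
    have h2 : (x : G) ∈ zpowers (y : G) := by rw [hP.zpowers_eq y.2 hy1]; exact x.2
    rw [← mem_powers_iff_mem_zpowers] at h2
    obtain ⟨n, hn⟩ := h2
    have h3 : x = y ^ n := Subtype.ext (by simpa using hn.symm)
    rw [h3, map_pow, h, one_pow]
  rw [Finset.sum_congr rfl (fun x _ => h1 x), Finset.sum_const, nsmul_eq_mul, mul_one,
    Finset.card_univ, ← Nat.card_eq_fintype_card, hP.card] at hs
  exact hp.out.ne_zero (by exact_mod_cast hs)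

theorem conj_mem {u : G} (hu : u ∈ normalizer (P : Set G)) (x : P) : u * (x : G) * u⁻¹ ∈ P :=
  (Subgroup.mem_normalizer_iff.1 hu x).1 x.2

/-- twisted sums. -/
theorem lam_sum (hP : Sp p P) (hC : C = centralizer (P : Set G)) [Fintype P] {lam : P →* ℂ}
    (hs : ∑ x : P, lam x = 0) {u : G} (hu : u ∈ normalizer (P : Set G)) [Decidable (u ∈ C)] :
    ∑ x : P, lam ⟨u * x * u⁻¹, conj_mem hu x⟩ * lam x⁻¹ = if u ∈ C then (p : ℂ) else 0 := by
  split_ifs with h
  · rw [Finset.sum_congr rfl (g := fun _ => (1 : ℂ))]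
    · rw [Finset.sum_const, nsmul_eq_mul, mul_one, Finset.card_univ, ← Nat.card_eq_fintype_card,
        hP.card]
    · intro x _
      have h1 : (⟨u * x * u⁻¹, conj_mem hu x⟩ : P) = x := by
        apply Subtype.ext
        rw [hC, Subgroup.mem_centralizer_iff] at h
        have := h x x.2
        simp only
        rw [← this]; group
      rw [h1, ← map_mul, mul_inv_cancel, map_one]
  · obtain ⟨x0, hx0, hne⟩ : ∃ x0 ∈ P, x0 * u ≠ u * x0 := by
      by_contra hcon
      push Not at hcon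
      apply h
      rw [hC, Subgroup.mem_centralizer_iff]
      exact hcon
    let f : P →* ℂ :=
      { toFun := fun x => lam ⟨u * x * u⁻¹, conj_mem hu x⟩ * lam x⁻¹
        map_one' := by
          have h1 : (⟨u * (1 : P) * u⁻¹, conj_mem hu 1⟩ : P) = 1 := Subtype.ext (by simp)
          rw [h1, inv_one, map_one, mul_one]
        map_mul' := by
          intro x y
          have h1 : (⟨u * (x * y : P) * u⁻¹, conj_mem hu (x * y)⟩ : P) =
              ⟨u * x * u⁻¹, conj_mem hu x⟩ * ⟨u * y * u⁻¹, conj_mem hu y⟩ :=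
            Subtype.ext (by simp)
          rw [h1, mul_inv_rev, map_mul, map_mul]
          ring }
    have hf : f ≠ 1 := by
      intro hf
      have h1 : f ⟨x0, hx0⟩ = 1 := by rw [hf]; rfl
      have h2 : lam (⟨u * x0 * u⁻¹, conj_mem hu ⟨x0, hx0⟩⟩ * (⟨x0, hx0⟩ : P)⁻¹) = 1 := by
        rw [map_mul]; exact h1
      refine lam_ne hP hs ?_ h2
      intro h3
      apply hne
      have h4 : u * x0 * u⁻¹ * x0⁻¹ = 1 := congrArg Subtype.val h3
      calc x0 * u = (u * x0 * u⁻¹ * x0⁻¹) * (x0 * u) := by rw [h4, one_mul]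
        _ = u * x0 := by group
    exact sum_hom_units_eq_zero f hf

theorem lam_sum' [Fintype P] {lam : P →* ℂ} (hs : ∑ x : P, lam x = 0) {u : G}
    (hu : u ∈ normalizer (P : Set G)) :
    ∑ x : P, lam ⟨u * x * u⁻¹, conj_mem hu x⟩ = 0 := by
  rw [← hs]
  have hinv : ∀ y : P, u⁻¹ * (y : G) * u ∈ P := fun y => by
    have := conj_mem (Subgroup.inv_mem _ hu) y
    rwa [inv_inv] at this
  refine Fintype.sum_equiv
    { toFun := fun x : P => (⟨u * x * u⁻¹, conj_mem hu x⟩ : P)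
      invFun := fun y : P => ⟨u⁻¹ * y * u, hinv y⟩
      left_inv := fun x => Subtype.ext (by simp; group)
      right_inv := fun x => Subtype.ext (by simp; group) } _ _ (fun _ => rfl)

theorem lam_conj (hP : Sp p P) (hC : C = centralizer (P : Set G)) {χ0 : IrrCharacter C}
    {lam : P →* ℂ} (hlam : ∀ (x : P) (c : G), c ∈ C → ex χ0 (x * c) = lam x * ex χ0 c) (x : P) :
    conj (lam x) = lam x⁻¹ := by
  have hPC : P ≤ C := by rw [hC]; exact le_centralizer_of_prime hP.card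
  have h0 : (χ0 : C → ℂ) 1 ≠ 0 := CharBase.irr_one_ne_zero χ0.2
  have h1 : ∀ y : P, (χ0 : C → ℂ) ⟨y, hPC y.2⟩ = lam y * (χ0 : C → ℂ) 1 := by
    intro y
    have h2 := hlam y 1 C.one_mem
    rw [mul_one, ex_of_mem χ0 (hPC y.2), ex_of_mem χ0 C.one_mem] at h2
    exact h2
  have h2 := CharBase.irr_inv χ0 ⟨x, hPC x.2⟩
  have e : (⟨x, hPC x.2⟩ : C)⁻¹ = ⟨(x⁻¹ : P), hPC (x⁻¹ : P).2⟩ := rfl
  rw [e, h1, h1, map_mul] at h2
  have h3 : conj ((χ0 : C → ℂ) 1) = (χ0 : C → ℂ) 1 := by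
    rw [Cfsg.Agent.BlkC.charDegree_spec]; simp
  rw [h3] at h2
  exact (mul_right_cancel₀ h0 h2).symm

/-- the weighted sums. -/
theorem wsum (hP : Sp p P) (hC : C = centralizer (P : Set G)) [Fintype P]
    [Fintype (normalizer (P : Set G))] {ζ : IrrCharacter G} {χ0 : IrrCharacter C}
    {lam : P →* ℂ} (hlam : ∀ (x : P) (c : G), c ∈ C → ex χ0 (x * c) = lam x * ex χ0 c) {δ : ℤ}
    (hval : ∀ h : C, Sup p P (h : G) → (Nat.card C : ℂ) * (ζ : G → ℂ) h =
      - δ * ∑ u : normalizer (P : Set G), ex χ0 (u * h * (u : G)⁻¹))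
    {v : G} (hv : v ∈ C) (hvp : ¬ p ∣ orderOf v) (w : P → ℂ) (hw : w 1 = 1) :
    (Nat.card C : ℂ) * ∑ x : P, (ζ : G → ℂ) (x * v) * w x = (Nat.card C : ℂ) * (ζ : G → ℂ) v -
      δ * (∑ u : normalizer (P : Set G), ex χ0 (u * v * (u : G)⁻¹) *
        (∑ x : P, lam ⟨u * x * (u : G)⁻¹, conj_mem u.2 x⟩ * w x) -
          ∑ u : normalizer (P : Set G), ex χ0 (u * v * (u : G)⁻¹)) := by
  classical
  have hPC : P ≤ C := by rw [hC]; exact le_centralizer_of_prime hP.card
  have hNC : normalizer (P : Set G) ≤ normalizer (C : Set G) := by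
    rw [hC]; exact normalizer_le_normalizer_centralizer P
  set F : P → ℂ := fun x => ∑ u : normalizer (P : Set G),
    lam ⟨u * x * (u : G)⁻¹, conj_mem u.2 x⟩ * ex χ0 (u * v * (u : G)⁻¹) with hF
  have h1 : ∀ x : P, x ≠ 1 → (Nat.card C : ℂ) * (ζ : G → ℂ) (x * v) = - δ * F x := by
    intro x hx
    have hx1 : (x : G) ≠ 1 := fun h => hx (Subtype.ext h)
    have hs := sup_of_mem hP.card x.2 hx1 (hC ▸ hv) hvp
    rw [hval ⟨x * v, C.mul_mem (hPC x.2) hv⟩ hs, hF]
    congr 1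
    refine Finset.sum_congr rfl fun u _ => ?_
    have h2 : (u : G) * v * (u : G)⁻¹ ∈ C :=
      (Subgroup.mem_normalizer_iff.1 (hNC u.2) v).1 hv
    rw [← hlam ⟨u * x * (u : G)⁻¹, conj_mem u.2 x⟩ _ h2]
    congr 1
    simp only
    group
  have hF1 : F 1 = ∑ u : normalizer (P : Set G), ex χ0 (u * v * (u : G)⁻¹) := by
    rw [hF]
    refine Finset.sum_congr rfl fun u _ => ?_
    have h2 : (⟨u * (1 : P) * (u : G)⁻¹, conj_mem u.2 1⟩ : P) = 1 := Subtype.ext (by simp)
    rw [h2, map_one, one_mul]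
  have h2 : ∑ u : normalizer (P : Set G), ex χ0 (u * v * (u : G)⁻¹) *
      (∑ x : P, lam ⟨u * x * (u : G)⁻¹, conj_mem u.2 x⟩ * w x) = ∑ x : P, F x * w x := by
    rw [hF]
    simp only [Finset.mul_sum, Finset.sum_mul]
    rw [Finset.sum_comm]
    refine Finset.sum_congr rfl fun x _ => Finset.sum_congr rfl fun u _ => ?_
    ring
  rw [h2, ← hF1, sum_P_split (fun x : P => (ζ : G → ℂ) (x * v) * w x),
    sum_P_split (fun x : P => F x * w x), hw, mul_add, Finset.mul_sum]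
  have h3 : ∑ x ∈ (Finset.univ : Finset P).erase 1, (Nat.card C : ℂ) * ((ζ : G → ℂ) (x * v) * w x) =
      - δ * ∑ x ∈ (Finset.univ : Finset P).erase 1, F x * w x := by
    rw [Finset.mul_sum]
    refine Finset.sum_congr rfl fun x hx => ?_
    rw [← mul_assoc, h1 x (Finset.mem_erase.mp hx).1, mul_assoc]
  rw [h3, Subgroup.coe_one, one_mul]
  ring

/-- the twisted average. -/
theorem exists_theta (hP : Sp p P) (hC : C = centralizer (P : Set G)) [Fintype P]
    {ζ : IrrCharacter G} {χ0 : IrrCharacter C}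
    {lam : P →* ℂ} (hlam : ∀ (x : P) (c : G), c ∈ C → ex χ0 (x * c) = lam x * ex χ0 c) :
    ∃ Θ : C → ℂ, IsCharacter C Θ ∧ ∀ c : C, (p : ℂ) * Θ c =
      conj (ex χ0 c) * ∑ x : P, (ζ : G → ℂ) (x * c) * lam x⁻¹ := by
  classical
  have hPC : P ≤ C := by rw [hC]; exact le_centralizer_of_prime hP.card
  haveI : Fintype C := Fintype.ofFinite C
  haveI : Fintype (P.subgroupOf C) := Fintype.ofFinite _
  haveI : (P.subgroupOf C).Normal := by
    have h1 := subgroupOf_le_center (D := P) hC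
    refine ⟨fun n hn g => ?_⟩
    have h2 := (Subgroup.mem_center_iff.1 (h1 hn)) g
    rw [h2, mul_inv_cancel_right]
    exact hn
  have h1 : IsCharacter C ((fun c : C => (ζ : G → ℂ) c) * fun c => conj ((χ0 : C → ℂ) c)) :=
    CharBase.isCharacter_mul (CharBase.isCharacter_restrict (CharBase.irr_isCharacter ζ) C)
      (Char.BR.isCharacter_conj (CharBase.irr_isCharacter χ0))
  refine ⟨_, Char.avgN_isCharacter (P.subgroupOf C) h1, fun c => ?_⟩
  have hcard : (Nat.card (P.subgroupOf C) : ℂ) = p := by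
    rw [Nat.card_congr (Subgroup.subgroupOfEquivOfLe hPC).toEquiv, hP.card]
  have hp0 : (p : ℂ) ≠ 0 := by exact_mod_cast hp.out.ne_zero
  rw [Char.avgN_apply, hcard, ← mul_assoc, mul_inv_cancel₀ hp0, one_mul, Finset.mul_sum]
  symm
  refine Fintype.sum_equiv (Subgroup.subgroupOfEquivOfLe hPC).symm.toEquiv _ _ fun x => ?_
  have h2 : (((Subgroup.subgroupOfEquivOfLe hPC).symm.toEquiv x : P.subgroupOf C) : C) =
      ⟨x, hPC x.2⟩ := rfl
  rw [h2, Pi.mul_apply]
  have h3 : (χ0 : C → ℂ) (⟨x, hPC x.2⟩ * c) = lam x * ex χ0 c := by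
    rw [← hlam x c c.2, ex_of_mem χ0 (C.mul_mem (hPC x.2) c.2)]
    rfl
  have h4 : ((⟨x, hPC x.2⟩ * c : C) : G) = x * c := rfl
  rw [h3, h4, map_mul, lam_conj hP hC hlam]
  ring

open Classical in
theorem sum_ite_C {C N : Subgroup G} [Fintype N] (hCN : C ≤ N) (a : ℂ) : ∑ u : N, (if (u : G) ∈ C then a else 0) = Nat.card C * a := by
  have h00 : ∀ x : G, x ∈ Finset.univ.filter (fun u : G => u ∈ N) ↔ x ∈ N := by
    intro x; rw [Finset.mem_filter]; exact ⟨fun h => h.2, fun h => ⟨Finset.mem_univ _, h⟩⟩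
  have h0 : ∑ u ∈ Finset.univ.filter (fun u : G => u ∈ N), (if u ∈ C then a else 0) =
      ∑ u : N, (if (u : G) ∈ C then a else 0) :=
    Finset.sum_subtype _ h00 (fun u => if u ∈ C then a else 0)
  have h1 : ∑ u : N, (if (u : G) ∈ C then a else 0) =
      ∑ u : G, if u ∈ N then (if u ∈ C then a else 0) else 0 := by
    rw [← Finset.sum_filter (p := fun u : G => u ∈ N)
      (f := fun u => if u ∈ C then a else 0), h0]
  have h2 : ∀ u : G, (if u ∈ N then (if u ∈ C then a else 0) else 0) = if u ∈ C then a else 0 := by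
    intro u
    by_cases h : u ∈ C
    · rw [if_pos (hCN h)]
    · rw [if_neg h]; split_ifs <;> rfl
  rw [h1, Finset.sum_congr rfl fun u _ => h2 u, ← Finset.sum_filter, Finset.sum_const,
    nsmul_eq_mul, CycDat.card_filter_mem]

end

end Cfsg.Agent.BT
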