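import Cfsg.Agent.BT.PM2C

/-!
A faithful character of degree `p - 2`: the exceptional case.
-/

set_option autoImplicit false
set_option linter.unusedSectionVars false

open scoped ComplexConjugate

namespace Cfsg.Agent.BT

open Cfsg Subgroup Cfsg.Agent.BR Cfsg.Agent.CycG Cfsg.Agent.Blk Cfsg.Agent.BlkInd Cfsg.Agent.BlkC
open Cfsg.Agent.CharBase (oneIrr)

universe u

section

variable {G : Type u} [Group G] [Fintype G] {p : ℕ} [hp : Fact p.Prime] {P C : Subgroup G}

/-- a character equal to its degree on average on `P` is trivial on `P`. -/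
theorem eq_of_sum_eq {ζ : IrrCharacter G} [Fintype P]
    (h : ∑ x : P, (ζ : G → ℂ) x = Nat.card P * (dg ζ : ℂ)) (x : P) :
    (ζ : G → ℂ) x = (ζ : G → ℂ) 1 := by
  have hnorm : ∀ g : G, ‖(ζ : G → ℂ) g‖ ≤ dg ζ := by
    intro g
    obtain ⟨n, hn1, hn2⟩ := CharBase.norm_le_of_isCharacter (CharBase.irr_isCharacter ζ) g
    rw [dg_eq] at hn1
    have : dg ζ = n := by exact_mod_cast hn1
    rw [this]; exact hn2
  have h1 : ∑ a : P, ((dg ζ : ℝ) - ((ζ : G → ℂ) a).re) = 0 := by
    rw [Finset.sum_sub_distrib, Finset.sum_const, Finset.card_univ, ← Nat.card_eq_fintype_card,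
      nsmul_eq_mul, ← Complex.re_sum, h]
    simp
  have h2 : ∀ a ∈ (Finset.univ : Finset P), 0 ≤ (dg ζ : ℝ) - ((ζ : G → ℂ) a).re := by
    intro a _
    have := (Complex.re_le_norm ((ζ : G → ℂ) a)).trans (hnorm a)
    linarith
  have h3 : (dg ζ : ℝ) - ((ζ : G → ℂ) x).re = 0 :=
    (Finset.sum_eq_zero_iff_of_nonneg h2).mp h1 x (Finset.mem_univ _)
  have h4 : ((ζ : G → ℂ) x).re = dg ζ := by linarith
  have h5 : ((ζ : G → ℂ) x).im = 0 := by
    have h6 := hnorm x
    have h7 : ‖(ζ : G → ℂ) x‖ ^ 2 = ((ζ : G → ℂ) x).re ^ 2 + ((ζ : G → ℂ) x).im ^ 2 := by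
      rw [← Complex.normSq_eq_norm_sq, Complex.normSq_apply]; ring
    have h8 : ‖(ζ : G → ℂ) x‖ ^ 2 ≤ (dg ζ : ℝ) ^ 2 := pow_le_pow_left₀ (norm_nonneg _) h6 2
    rw [h7, h4] at h8
    nlinarith [sq_nonneg ((ζ : G → ℂ) x).im]
  rw [dg_eq]
  apply Complex.ext
  · rw [h4]; simp
  · rw [h5]; simp

/-- **the exceptional case**. -/
theorem exc_case (hP : Sp p P) (hp5 : 5 < p) (hC : C = centralizer (P : Set G))
    [Fintype P] [Fintype (normalizer (P : Set G))] {ζ : IrrCharacter G} (hdeg : dg ζ + 2 = p)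
    (hf : ∀ g : G, (ζ : G → ℂ) g = (ζ : G → ℂ) 1 → g = 1)
    (hn1 : C.relIndex (normalizer (P : Set G)) ≠ 1)
    (hn : C.relIndex (normalizer (P : Set G)) ∣ p - 1) {χ0 : IrrCharacter C}
    {lam : P →* ℂ} (hlam : ∀ (x : P) (c : G), c ∈ C → ex χ0 (x * c) = lam x * ex χ0 c)
    (hs : ∑ x : P, lam x = 0) {δ : ℤ} (hδ : δ = 1 ∨ δ = -1)
    (hval : ∀ h : C, Sup p P (h : G) → (Nat.card C : ℂ) * (ζ : G → ℂ) h =
      - δ * ∑ u : normalizer (P : Set G), ex χ0 (u * h * (u : G)⁻¹)) :
    C.relIndex (normalizer (P : Set G)) = 2 ∧ ∀ v ∈ C, ¬ p ∣ orderOf v → v ∈ center G := by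
  classical
  have hPC : P ≤ C := by rw [hC]; exact le_centralizer_of_prime hP.card
  have hCN : C ≤ normalizer (P : Set G) := by rw [hC]; exact centralizer_le_normalizer P
  have hNC : normalizer (P : Set G) ≤ normalizer (C : Set G) := by
    rw [hC]; exact normalizer_le_normalizer_centralizer P
  obtain ⟨n, hndef⟩ : ∃ n, n = C.relIndex (normalizer (P : Set G)) := ⟨_, rfl⟩
  rw [← hndef] at hn1 hn ⊢
  have hcN : Nat.card C * n = Nat.card (normalizer (P : Set G)) := by
    rw [hndef]; exact CycDat.relIndex_mul_card hCN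
  have hC0 : (Nat.card C : ℂ) ≠ 0 := by exact_mod_cast Nat.card_pos.ne'
  have hcNc : (Nat.card (normalizer (P : Set G)) : ℂ) = Nat.card C * n := by rw [← hcN]; push_cast; ring
  obtain ⟨m, hm⟩ : ∃ m : ℕ, (χ0 : C → ℂ) 1 = m := ⟨dg χ0, dg_eq χ0⟩
  have hm0 : m ≠ 0 := by
    rintro rfl
    exact CharBase.irr_one_ne_zero χ0.2 (by rw [hm]; simp)
  have hex1 : ex χ0 (1 : G) = m := by rw [ex_of_mem χ0 C.one_mem]; exact hm
  have h1p : ¬ p ∣ orderOf (1 : G) := not_dvd_orderOf_one
  -- the trivial weights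
  have e1 := wsum hP hC hlam hval C.one_mem h1p (fun _ => 1) rfl
  have e1' : ∀ u : normalizer (P : Set G), ex χ0 ((u : G) * 1 * (u : G)⁻¹) = m := by
    intro u; rw [mul_one, mul_inv_cancel]; exact hex1
  simp only [mul_one] at e1
  have e2 : ∀ u : normalizer (P : Set G), ∑ x : P, lam ⟨u * x * (u : G)⁻¹, conj_mem u.2 x⟩ = 0 := fun u =>
    lam_sum' hs u.2
  simp only [mul_inv_cancel, hex1, e2, mul_zero, Finset.sum_const_zero, zero_sub,
    Finset.sum_const, Finset.card_univ, ← Nat.card_eq_fintype_card, nsmul_eq_mul] at e1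
  obtain ⟨j, hj⟩ := hP.exists_sum (CharBase.irr_isCharacter ζ)
  rw [hj, dg_eq, hcNc] at e1
  have e3 : (p : ℂ) * j = dg ζ + δ * (n * m) := by
    apply mul_left_cancel₀ hC0
    linear_combination e1
  -- the `lam⁻¹` weights
  obtain ⟨Θ, hΘ, hΘv⟩ := exists_theta hP hC (ζ := ζ) hlam
  have key : ∀ v ∈ C, ¬ p ∣ orderOf v → (Nat.card C : ℂ) * ∑ x : P, (ζ : G → ℂ) (x * v) * lam x⁻¹ =
      (Nat.card C : ℂ) * (ζ : G → ℂ) v - δ * ((Nat.card C : ℂ) * (p * ex χ0 v) -
        ∑ u : normalizer (P : Set G), ex χ0 (u * v * (u : G)⁻¹)) := by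
    intro v hv hvp
    rw [wsum hP hC hlam hval hv hvp (fun x => lam x⁻¹) (by simp)]
    congr 3
    rw [← sum_ite_C hCN]
    refine Finset.sum_congr rfl fun u _ => ?_
    rw [lam_sum hP hC hs u.2]
    split_ifs with h
    · rw [ex_conj χ0 h]; ring
    · rw [mul_zero]
  have e4 := key 1 C.one_mem h1p
  simp only [mul_one, mul_inv_cancel, hex1, 
    Finset.sum_const, Finset.card_univ, ← Nat.card_eq_fintype_card, nsmul_eq_mul] at e4
  rw [dg_eq, hcNc] at e4
  obtain ⟨t, ht, -⟩ := CharBase.norm_le_of_isCharacter hΘ 1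
  have e5 := hΘv 1
  rw [ht] at e5
  simp only [Subgroup.coe_one, mul_one, hex1] at e5
  have e6 : ∑ x : P, (ζ : G → ℂ) x * lam x⁻¹ = dg ζ - δ * (p * m - n * m) := by
    apply mul_left_cancel₀ hC0
    linear_combination e4
  rw [e6, Complex.conj_natCast] at e5
  have hmpos : 1 ≤ m := Nat.one_le_iff_ne_zero.mpr hm0
  have hmc : (m : ℂ) ≠ 0 := by exact_mod_cast hm0
  have hp0 : (p : ℂ) ≠ 0 := by exact_mod_cast hp.out.ne_zero
  rcases hδ with hδ | hδ
  · subst hδ
    rw [Int.cast_one, one_mul] at e3 e5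
    have e7 : p * j + 2 = p + m * n := by
      have h1 : p * j = dg ζ + n * m := by exact_mod_cast e3
      rw [h1, mul_comm n m]; omega
    have e8 : (m : ℤ) * (j - m) = t := by
      have h1 : (p : ℂ) * (m * (j - m)) = p * t := by rw [e5]; linear_combination m * e3
      have h2 := mul_left_cancel₀ hp0 h1
      exact_mod_cast h2
    have e9 : m ≤ j := by
      by_contra hlt
      push Not at hlt
      have h1 : (m : ℤ) * (j - m) < 0 := by
        apply mul_neg_of_pos_of_neg
        · exact_mod_cast hmpos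
        · have : (j : ℤ) < m := by exact_mod_cast hlt
          omega
      rw [e8] at h1
      have : (0 : ℤ) ≤ t := Int.natCast_nonneg _
      omega
    rcases pm2_arith1 hp5 hn e7 e9 hmpos with ⟨h1, h2, h3⟩ | h1
    · subst h1 h2 h3
      refine ⟨rfl, ?_⟩
      have ht0 : t = 0 := by
        have : (t : ℤ) = 0 := by rw [← e8]; norm_num
        exact_mod_cast this
      have hΘ0 : ∀ c : C, Θ c = 0 := by
        intro c
        obtain ⟨t', ht', h2⟩ := CharBase.norm_le_of_isCharacter hΘ c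
        rw [ht, ht0] at ht'
        have : t' = 0 := by exact_mod_cast ht'.symm
        rw [this, Nat.cast_zero] at h2
        exact norm_le_zero_iff.mp h2
      have hm1 : (χ0 : C → ℂ) 1 = 1 := by rw [hm]; simp
      have hχc := CharBase.irr_isCharacter χ0
      have star : ∀ v ∈ C, ¬ p ∣ orderOf v → (Nat.card C : ℂ) * (ζ : G → ℂ) v =
          (Nat.card C : ℂ) * (p * ex χ0 v) -
          ∑ u : normalizer (P : Set G), ex χ0 (u * v * (u : G)⁻¹) := by
        intro v hv hvp
        have h1 := hΘv ⟨v, hv⟩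
        rw [hΘ0, mul_zero] at h1
        have h2 : conj (ex χ0 v) ≠ 0 := by
          rw [ex_of_mem χ0 hv]
          exact (map_ne_zero_iff _ (RingHom.injective _)).mpr (Char.linChar_ne_zero hχc hm1 _)
        have h3 := (mul_eq_zero.mp h1.symm).resolve_left h2
        have h4 := key v hv hvp
        simp only at h3
        rw [h3, Int.cast_one] at h4
        linear_combination -h4
      have hconj : ∀ v ∈ C, ¬ p ∣ orderOf v → ∀ w : normalizer (P : Set G),
          ex χ0 (w * v * (w : G)⁻¹) = ex χ0 v := by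
        intro v hv hvp w
        have hv' : (w : G) * v * (w : G)⁻¹ ∈ C := (Subgroup.mem_normalizer_iff.1 (hNC w.2) v).1 hv
        have hvp' : ¬ p ∣ orderOf ((w : G) * v * (w : G)⁻¹) := by
          have : (w : G) * v * (w : G)⁻¹ = MulAut.conj (w : G) v := by simp
          rw [this, MulEquiv.orderOf_eq]; exact hvp
        have h1 := star _ hv hvp
        have h2 := star _ hv' hvp'
        have h3 : (ζ : G → ℂ) ((w : G) * v * (w : G)⁻¹) = (ζ : G → ℂ) v :=
          CharBase.irr_isClassFunction ζ v w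
        have h4 : ∑ u : normalizer (P : Set G), ex χ0 (u * ((w : G) * v * (w : G)⁻¹) * (u : G)⁻¹) =
            ∑ u : normalizer (P : Set G), ex χ0 (u * v * (u : G)⁻¹) := by
          refine Fintype.sum_equiv (Equiv.mulRight w) _ _ fun u => ?_
          congr 1
          simp only [Equiv.coe_mulRight, Subgroup.coe_mul]
          group
        rw [h3, h4, h1] at h2
        have h5 : (Nat.card C : ℂ) * (p : ℂ) ≠ 0 := mul_ne_zero hC0 hp0
        apply mul_left_cancel₀ h5
        linear_combination -h2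
      intro v hv hvp
      have h1 := star v hv hvp
      rw [Finset.sum_congr rfl (fun u _ => hconj v hv hvp u), Finset.sum_const, Finset.card_univ,
        ← Nat.card_eq_fintype_card, nsmul_eq_mul, hcNc] at h1
      have h2 : (ζ : G → ℂ) v = (dg ζ : ℂ) * ex χ0 v := by
        apply mul_left_cancel₀ hC0
        rw [h1]
        have : (p : ℂ) = dg ζ + 2 := by exact_mod_cast hdeg.symm
        rw [this]; push_cast; ring
      apply H79.mem_center_of_norm_eq ζ hf
      rw [h2, norm_mul, ex_of_mem χ0 hv, Char.linChar_norm hχc hm1, mul_one, Complex.norm_natCast]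
    · exfalso
      obtain ⟨x, hx, hx1⟩ := exists_ne_one hP
      apply hx1
      apply hf
      refine eq_of_sum_eq (P := P) ?_ ⟨x, hx⟩
      rw [hj, hP.card]
      have : j = dg ζ := by omega
      rw [this]
  · exfalso
    subst hδ
    apply hn1
    refine pm2_arith2 hp5 hn (j := j) (m := m) ?_
    have h1 : p * j + n * m = dg ζ := by
      have : (p : ℂ) * j + n * m = dg ζ := by rw [e3]; push_cast; ring
      exact_mod_cast this
    have h2 : n * m = m * n := mul_comm _ _
    omega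

end

end Cfsg.Agent.BT
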