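import Cfsg.Agent.BT.PM2D

/-!
A faithful character of degree `p - 2`: the structure of the normalizer of a Sylow subgroup.
-/

set_option autoImplicit false
set_option linter.unusedSectionVars false

open scoped ComplexConjugate

namespace Cfsg.Agent.BT

open Cfsg Subgroup Cfsg.Agent.BR Cfsg.Agent.CycG Cfsg.Agent.Blk Cfsg.Agent.BlkInd Cfsg.Agent.BlkC
open Cfsg.Agent.CharBase (oneIrr)

universe u

section

variable {G : Type u} [Group G] [Fintype G] {p : ℕ} [hp : Fact p.Prime] {P : Subgroup G}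

theorem npc_of_le (P : Sylow p G)
    (h : normalizer ((P : Subgroup G) : Set G) ≤ centralizer ((P : Subgroup G) : Set G)) :
    HasNormalPComplement p G :=
  ⟨P, (MonoidHom.transferSylow P h).ker, inferInstance,
    MonoidHom.ker_transferSylow_isComplement' P h⟩

theorem not_psolv (hP : Sp p P) (hnn : ¬ P.Normal) {ζ : IrrCharacter G} (hdeg : dg ζ + 2 = p)
    (hf : ∀ g : G, (ζ : G → ℂ) g = (ζ : G → ℂ) 1 → g = 1) : ¬ IsPSolvable p G := by
  intro h
  obtain ⟨Q, hQ⟩ := hP.exists_sylow
  have h1 := psolv_deg h (CharBase.irr_isCharacter ζ) hf (by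
    have : charDegree (ζ : G → ℂ) = dg ζ := rfl
    omega) Q (by rw [hQ]; exact hnn)
  have h2 : charDegree (ζ : G → ℂ) = dg ζ := rfl
  omega

/-- **the structure of the normalizer**. -/
theorem pm2_struct (hP : Sp p P) (hp5 : 5 < p) (hnn : ¬ P.Normal) {ζ : IrrCharacter G}
    (hdeg : dg ζ + 2 = p) (hf : ∀ g : G, (ζ : G → ℂ) g = (ζ : G → ℂ) 1 → g = 1) :
    ind P = 2 ∧ ∀ v ∈ centralizer (P : Set G), ¬ p ∣ orderOf v → v ∈ center G := by
  classical
  obtain ⟨M, hM⟩ := Glaub.exists_isPModular hp.out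
  haveI := hM.2.1.isPrime
  obtain ⟨C, hC⟩ : ∃ C : Subgroup G, C = centralizer (P : Set G) := ⟨_, rfl⟩
  haveI : Fintype C := Fintype.ofFinite C
  haveI : Fintype P := Fintype.ofFinite P
  haveI : Fintype (normalizer (P : Set G)) := Fintype.ofFinite _
  have hPC : P ≤ C := by rw [hC]; exact le_centralizer_of_prime hP.card
  have hCN : C ≤ normalizer (P : Set G) := by rw [hC]; exact centralizer_le_normalizer P
  have hζp : ¬ p ∣ dg ζ := by
    intro h
    have := Nat.le_of_dvd (dg_pos ζ) h
    omega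
  obtain ⟨B, b, hζB, hBD, hind⟩ := exists_blk hP hM hC ζ hζp
  obtain ⟨T, hT⟩ := exists_stab hC b
  obtain ⟨χ1, d, h1P, hcard, hrk⟩ := s4696_prime hM hP.card hBD hC hind hT
  have hdef := defect_of_ind hM hPC hC hind hBD
  have hex : ∃ χ ∈ b, χ ≠ χ1 := by
    by_contra hcon
    push Not at hcon
    have h1 : b = {χ1} := by
      ext χ
      rw [Set.mem_singleton_iff]
      exact ⟨fun h => hcon χ h, fun h => h ▸ d.one_mem⟩
    rw [h1] at hcard
    simp only [Nat.card_unique] at hcard
    exact hp.out.one_lt.ne hcard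
  obtain ⟨θ, ε, δ, o, -⟩ := d.main hM hrk hex ζ
  have hn1 : C.relIndex (normalizer (P : Set G)) ≠ 1 := by
    intro h
    rw [Subgroup.relIndex_eq_one] at h
    obtain ⟨Q, hQ⟩ := hP.exists_sylow
    have h2 : HasNormalPComplement p G := npc_of_le Q (by rw [hQ, ← hC]; exact h)
    exact not_psolv hP hnn hdeg hf (H33.isPSolvable_of_npc h2)
  have hnd : C.relIndex (normalizer (P : Set G)) ∣ p - 1 := by
    rw [hC]
    exact relIndex_dvd_of_prime hp.out hP.card le_rfl
  have hind2 : C.relIndex (normalizer (P : Set G)) = ind P := by rw [ind, hC]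
  by_cases hE : Exc b χ1 θ ζ
  · obtain ⟨χ0, hχ0, h01, rfl⟩ := hE
    obtain ⟨lam, hlam⟩ := exists_lam hP hC χ0
    have hs : ∑ x : P, lam x = 0 := by
      have h1 := sum_P_eq_zero hM hPC hC d.hf hdef d.one_mem h1P hχ0 h01
      have h0 : (χ0 : C → ℂ) 1 ≠ 0 := CharBase.irr_one_ne_zero χ0.2
      have h2 : ∀ y : P, (χ0 : C → ℂ) ⟨y, hPC y.2⟩ = lam y * (χ0 : C → ℂ) 1 := by
        intro y
        have h2 := hlam y 1 C.one_mem
        rw [mul_one, ex_of_mem χ0 (hPC y.2), ex_of_mem χ0 C.one_mem] at h2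
        exact h2
      rw [Finset.sum_congr rfl (fun y _ => h2 y), ← Finset.sum_mul] at h1
      exact (mul_eq_zero.mp h1).resolve_right h0
    have h3 := exc_case hP hp5 hC hdeg hf hn1 hnd hlam hs o.delta
      (fun h hs => val_exc hP hM hBD d o hχ0 h01 h hs)
    rw [hind2, hC] at h3
    exact h3
  · exfalso
    obtain ⟨j, hj⟩ := hP.exists_sum (CharBase.irr_isCharacter ζ)
    have hTN : T ≤ normalizer (P : Set G) := fun t ht => ((hT t).1 ht).1
    have hTc := CycDat.relIndex_mul_card hTN
    obtain ⟨m, hm⟩ : ∃ m : ℕ, (χ1 : C → ℂ) 1 = m := ⟨dg χ1, dg_eq χ1⟩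
    have hm0 : m ≠ 0 := by
      rintro rfl
      exact CharBase.irr_one_ne_zero χ1.2 (by rw [hm]; simp)
    set w := T.relIndex (normalizer (P : Set G)) * m with hw
    have hr0 : T.relIndex (normalizer (P : Set G)) ≠ 0 := by
      intro h
      rw [h, mul_zero] at hTc
      exact Nat.card_pos.ne hTc
    have hw0 : 1 ≤ w := Nat.one_le_iff_ne_zero.mpr (mul_ne_zero hr0 hm0)
    have hT0 : (Nat.card T : ℂ) ≠ 0 := by exact_mod_cast Nat.card_pos.ne'
    have hv : ∀ x : P, x ≠ 1 → (ζ : G → ℂ) x = ε ζ * w := by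
      intro x hx
      have hx1 : (x : G) ≠ 1 := fun h => hx (Subtype.ext h)
      have hsup := sup_of_mem (v := 1) hP.card x.2 hx1 (Subgroup.one_mem _) not_dvd_orderOf_one
      rw [mul_one] at hsup
      have h1 := val_nonexc hP hM hBD d o hζB hE ⟨x, hPC x.2⟩ hsup
      have h2 : ∀ u : normalizer (P : Set G), ex χ1 ((u : G) * x * (u : G)⁻¹) = m := by
        intro u
        have h3 := conj_mem u.2 x
        rw [ex_of_mem χ1 (hPC h3), h1P _ h3, hm]
      simp only [h2, Finset.sum_const, Finset.card_univ, ← Nat.card_eq_fintype_card,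
        nsmul_eq_mul] at h1
      apply mul_left_cancel₀ hT0
      rw [h1, hw, ← hTc]
      push_cast
      ring
    have h1 : (p : ℂ) * j = dg ζ + (p - 1) * (ε ζ * w) := by
      rw [← hj, sum_P_split (fun x : P => (ζ : G → ℂ) x), Subgroup.coe_one, dg_eq]
      congr 1
      rw [Finset.sum_congr rfl (fun x hx => hv x (Finset.mem_erase.mp hx).1), Finset.sum_const,
        Finset.card_erase_of_mem (Finset.mem_univ _), Finset.card_univ,
        ← Nat.card_eq_fintype_card, hP.card, nsmul_eq_mul, Nat.cast_sub hp.out.one_lt.le,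
        Nat.cast_one]
    obtain ⟨x, hx, hx1⟩ := exists_ne_one hP
    have hvx := hv ⟨x, hx⟩ (fun h => hx1 (congrArg Subtype.val h))
    rcases o.eps ζ with hε | hε
    · rw [hε, Int.cast_one, one_mul] at h1 hvx
      obtain ⟨q, hq⟩ : ∃ q, p = q + 1 := ⟨p - 1, by omega⟩
      have h2 : p * j = dg ζ + q * w := by
        have : (p : ℂ) * j = dg ζ + q * w := by
          rw [h1, hq]; push_cast; ring
        exact_mod_cast this
      have h3 : p ∣ w + 2 := by
        have h4 : p * (1 + w) = p * j + (w + 2) := by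
          rw [h2]
          have : p * w = q * w + w := by rw [hq]; ring
          rw [mul_add, mul_one, this]; omega
        have h5 : p ∣ p * j + (w + 2) := h4 ▸ dvd_mul_right _ _
        exact (Nat.dvd_add_right (dvd_mul_right p j)).mp h5
      have h4 : w ≤ dg ζ := by
        obtain ⟨n, hn1, hn2⟩ := CharBase.norm_le_of_isCharacter (CharBase.irr_isCharacter ζ) x
        rw [dg_eq] at hn1
        have hn3 : dg ζ = n := by exact_mod_cast hn1
        rw [hvx, Complex.norm_natCast] at hn2
        rw [hn3]; exact_mod_cast hn2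
      have h5 := Nat.le_of_dvd (by omega) h3
      apply hx1
      apply hf
      rw [hvx, dg_eq]
      have : w = dg ζ := by omega
      rw [this]
    · rw [hε] at h1
      obtain ⟨q, hq⟩ : ∃ q, p = q + 1 := ⟨p - 1, by omega⟩
      have h2 : p * j + q * w = dg ζ := by
        have : (p : ℂ) * j + q * w = dg ζ := by
          rw [h1, hq]; push_cast; ring
        exact_mod_cast this
      have h3 : q * 1 ≤ q * w := Nat.mul_le_mul_left _ hw0
      omega

end

end Cfsg.Agent.BT
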