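import Cfsg.Agent.BT.PM2E
import Cfsg.Agent.H4.BlkQuot

/-!
Blocks of full defect when `C(P) = P × Z(G)`, `|P| = p`.
-/

set_option autoImplicit false
set_option linter.unusedSectionVars false

open scoped ComplexConjugate

namespace Cfsg.Agent.BT

open Cfsg Subgroup Cfsg.Agent.BR Cfsg.Agent.CycG Cfsg.Agent.Blk Cfsg.Agent.BlkInd Cfsg.Agent.BlkC
open Cfsg.Agent.CharBase (oneIrr)

universe u

section

variable {G : Type u} [Group G]

/-- same central character. -/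
def Ov (ψ0 ψ : IrrCharacter G) : Prop :=
  ∀ v ∈ center G, (ψ : G → ℂ) v * (ψ0 : G → ℂ) 1 = (ψ0 : G → ℂ) v * (ψ : G → ℂ) 1

/-- the data of a block of full defect. -/
structure BD [Finite G] (p : ℕ) (P : Subgroup G) (ψ0 : IrrCharacter G) where
  X : Finset (IrrCharacter G)
  Y : Finset (IrrCharacter G)
  ε : IrrCharacter G → ℤ
  δ : ℤ
  disj : Disjoint X Y
  mem0 : ψ0 ∈ X ∨ ψ0 ∈ Y
  cardX : X.card = ind P
  cardY : ind P * Y.card + 1 = p
  sgn : ∀ ψ, ε ψ = 1 ∨ ε ψ = -1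
  sgn₀ : δ = 1 ∨ δ = -1
  val : ∀ ψ ∈ X, ∀ x ∈ P, x ≠ 1 → (ψ : G → ℂ) x = ε ψ
  sumY : ∀ x ∈ P, x ≠ 1 → ∑ ψ ∈ Y, (ψ : G → ℂ) x = δ
  valY : ∀ ψ ∈ Y, ∑ᶠ x : P, (ψ : G → ℂ) x = dg ψ + δ * ind P
  reg : ∀ g : G, ¬ p ∣ orderOf g → ∀ θ ∈ Y, ∑ ψ ∈ X, (ε ψ : ℂ) * (ψ : G → ℂ) g +
    δ * (θ : G → ℂ) g = 0
  ov : ∀ ψ, ψ ∈ X ∨ ψ ∈ Y → Ov ψ0 ψ
  out : ∀ ψ, ψ ∉ X → ψ ∉ Y → Ov ψ0 ψ → ∀ x ∈ P, x ≠ 1 → (ψ : G → ℂ) x = 0

variable [Fintype G] {p : ℕ} [hp : Fact p.Prime] {P C : Subgroup G}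

/-- constituents have the same central character. -/
theorem over_of_inner {ψ : IrrCharacter G} [Fintype C] {ξ : IrrCharacter C}
    (h : classInner (fun c : C => (ψ : G → ℂ) c) (ξ : C → ℂ) ≠ 0) {v : G} (hv : v ∈ center G)
    (hvC : v ∈ C) :
    (ξ : C → ℂ) ⟨v, hvC⟩ * (ψ : G → ℂ) 1 = (ψ : G → ℂ) v * (ξ : C → ℂ) 1 := by
  have h0 : (ψ : G → ℂ) 1 ≠ 0 := CharBase.irr_one_ne_zero ψ.2
  have h0' : (ξ : C → ℂ) 1 ≠ 0 := CharBase.irr_one_ne_zero ξ.2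
  have hvc : (⟨v, hvC⟩ : C) ∈ center C := by
    rw [Subgroup.mem_center_iff] at hv ⊢
    intro g
    exact Subtype.ext (hv g)
  have h1 : ∀ c : C, (ψ : G → ℂ) ((c * ⟨v, hvC⟩ : C) : G) * conj ((ξ : C → ℂ) (c * ⟨v, hvC⟩)) *
      ((ψ : G → ℂ) 1 * conj ((ξ : C → ℂ) 1)) =
      ((ψ : G → ℂ) c * conj ((ξ : C → ℂ) c)) * ((ψ : G → ℂ) v * conj ((ξ : C → ℂ) ⟨v, hvC⟩)) := by
    intro c
    have e1 := mul_central ψ hv (c : G)
    have e2 := mul_central ξ hvc c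
    have e3 := congrArg conj e2
    rw [map_mul, map_mul] at e3
    have e4 : (((c * ⟨v, hvC⟩ : C)) : G) = c * v := rfl
    rw [e4]
    calc (ψ : G → ℂ) ((c : G) * v) * conj ((ξ : C → ℂ) (c * ⟨v, hvC⟩)) *
          ((ψ : G → ℂ) 1 * conj ((ξ : C → ℂ) 1)) =
          ((ψ : G → ℂ) ((c : G) * v) * (ψ : G → ℂ) 1) *
            (conj ((ξ : C → ℂ) (c * ⟨v, hvC⟩)) * conj ((ξ : C → ℂ) 1)) := by ring
      _ = _ := by rw [e1, e3]; ring
  have h2 : (∑ c : C, (ψ : G → ℂ) c * conj ((ξ : C → ℂ) c)) *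
      ((ψ : G → ℂ) 1 * conj ((ξ : C → ℂ) 1)) = (∑ c : C, (ψ : G → ℂ) c * conj ((ξ : C → ℂ) c)) *
      ((ψ : G → ℂ) v * conj ((ξ : C → ℂ) ⟨v, hvC⟩)) := by
    rw [Finset.sum_mul, Finset.sum_mul, ← Fintype.sum_equiv (Equiv.mulRight (⟨v, hvC⟩ : C))
      (fun c : C => (ψ : G → ℂ) ((c * ⟨v, hvC⟩ : C) : G) * conj ((ξ : C → ℂ) (c * ⟨v, hvC⟩)) *
      ((ψ : G → ℂ) 1 * conj ((ξ : C → ℂ) 1))) _ (fun c => rfl)]
    exact Finset.sum_congr rfl fun c _ => h1 c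
  have h3 : (∑ c : C, (ψ : G → ℂ) c * conj ((ξ : C → ℂ) c)) ≠ 0 := by
    intro h4
    apply h
    rw [classInner, h4, mul_zero]
  have h4 := mul_left_cancel₀ h3 h2
  have h5 := norm_central ξ hvc 1
  rw [one_mul] at h5
  have h6 : conj ((ξ : C → ℂ) 1) = (ξ : C → ℂ) 1 := by
    rw [Cfsg.Agent.BlkC.charDegree_spec]; simp
  rw [h6] at h4 h5
  apply mul_right_cancel₀ h0'
  calc (ξ : C → ℂ) ⟨v, hvC⟩ * (ψ : G → ℂ) 1 * (ξ : C → ℂ) 1 =
        (ξ : C → ℂ) ⟨v, hvC⟩ * ((ψ : G → ℂ) 1 * (ξ : C → ℂ) 1) := by ring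
    _ = (ψ : G → ℂ) v * ((ξ : C → ℂ) ⟨v, hvC⟩ * conj ((ξ : C → ℂ) ⟨v, hvC⟩)) := by
        rw [h4]; ring
    _ = _ := by rw [h5]; ring

theorem center_le (hC : C = centralizer (P : Set G)) : center G ≤ C := by
  rw [hC]; exact center_le_centralizer _

/-- `Z(G)` is a `p'`-group. -/
theorem center_reg (hP : Sp p P) (hind : ind P ≠ 1) {v : G} (hv : v ∈ center G) :
    ¬ p ∣ orderOf v := by
  intro h
  apply hind
  rw [ind, Subgroup.relIndex_eq_one]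
  obtain ⟨k, hk⟩ := h
  have hk0 : k ≠ 0 := by
    rintro rfl
    rw [mul_zero] at hk
    exact (orderOf_pos v).ne' hk
  have h1 : orderOf (v ^ k) = p := by
    rw [orderOf_pow' v hk0, hk, Nat.gcd_eq_right (dvd_mul_left k p),
      Nat.mul_div_cancel _ (Nat.pos_of_ne_zero hk0)]
  obtain ⟨x, hx⟩ := hP.exists_conj h1
  have hvk : v ^ k ∈ center G := (center G).pow_mem hv k
  have h2 : x⁻¹ * v ^ k * x = v ^ k := by
    have := (Subgroup.mem_center_iff.1 hvk) x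
    rw [mul_assoc, ← this, ← mul_assoc, inv_mul_cancel, one_mul]
  rw [h2] at hx
  have hne : v ^ k ≠ 1 := by
    intro h3
    rw [h3, orderOf_one] at h1
    exact hp.out.one_lt.ne h1
  have h3 : P ≤ center G := by
    rw [← hP.zpowers_eq hx hne, Subgroup.zpowers_le]
    exact hvk
  intro g _
  rw [Subgroup.mem_centralizer_iff]
  intro y hy
  exact ((Subgroup.mem_center_iff.1 (h3 hy)) g).symm

/-- `C(P) = P Z(G)`. -/
theorem C_decomp (hP : Sp p P) (hC : C = centralizer (P : Set G))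
    (hcen : ∀ v ∈ centralizer (P : Set G), ¬ p ∣ orderOf v → v ∈ center G) {g : G} (hg : g ∈ C) :
    ∃ x ∈ P, ∃ v ∈ center G, ¬ p ∣ orderOf v ∧ g = x * v := by
  obtain ⟨x, y, hxy, hc, ⟨k, hk⟩, hy⟩ := exists_isPPart hp.out (⟨g, hg⟩ : C)
  have hCN : C ≤ normalizer (P : Set G) := by rw [hC]; exact centralizer_le_normalizer P
  have hk' : orderOf (x : G) = p ^ k := by rw [Subgroup.orderOf_coe, hk]
  have hy' : ¬ p ∣ orderOf (y : G) := by rw [Subgroup.orderOf_coe]; exact hy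
  refine ⟨x, ?_, y, hcen y (hC ▸ y.2) hy', hy', (congrArg Subtype.val hxy).symm⟩
  have hk1 : k < 2 := by
    by_contra hge
    push Not at hge
    have h1 : p ^ 2 ∣ Nat.card G := (pow_dvd_pow p hge).trans (hk' ▸ orderOf_dvd_natCard _)
    rw [← P.card_mul_index, hP.card, pow_two] at h1
    exact hP.idx (Nat.dvd_of_mul_dvd_mul_left hp.out.pos h1)
  have hk2 : k = 0 ∨ k = 1 := by omega
  rcases hk2 with rfl | rfl
  · rw [pow_zero, orderOf_eq_one_iff] at hk'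
    rw [hk']; exact P.one_mem
  · rw [pow_one] at hk'
    exact hP.mem_of_normalizer (hCN x.2) hk'

theorem P_comm' (hP : Sp p P) {a b : G} (ha : a ∈ P) (hb : b ∈ P) : a * b = b * a := by
  have h := le_centralizer_of_prime hP.card ha
  rw [Subgroup.mem_centralizer_iff] at h
  exact (h b hb).symm

/-- `C(P)` is abelian. -/
theorem C_comm (hP : Sp p P) (hC : C = centralizer (P : Set G))
    (hcen : ∀ v ∈ centralizer (P : Set G), ¬ p ∣ orderOf v → v ∈ center G) (a b : C) :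
    a * b = b * a := by
  obtain ⟨x, hx, v, hv, -, ha⟩ := C_decomp hP hC hcen a.2
  obtain ⟨x', hx', v', hv', -, hb⟩ := C_decomp hP hC hcen b.2
  apply Subtype.ext
  rw [Subgroup.coe_mul, Subgroup.coe_mul, ha, hb]
  have h1 := Subgroup.mem_center_iff.1 hv
  have h2 := Subgroup.mem_center_iff.1 hv'
  have h3 := P_comm' hP hx hx'
  calc x * v * (x' * v') = x * (v * x') * v' := by group
    _ = (x * x') * (v * v') := by rw [← h1 x']; group
    _ = (x' * x) * (v' * v) := by rw [h3, h1 v']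
    _ = x' * (x * v') * v := by group
    _ = x' * v' * (x * v) := by rw [h2 x]; group

/-- agreement on the center implies membership in the block. -/
theorem mem_of_agree (hP : Sp p P) {M : Ideal AlgInt} (hM : IsPModular p M)
    (hC : C = centralizer (P : Set G))
    (hcen : ∀ v ∈ centralizer (P : Set G), ¬ p ∣ orderOf v → v ∈ center G)
    {b : Set (IrrCharacter C)} (hb : IsPBlock M b) {χ χ' : IrrCharacter C} (hχ : χ ∈ b)
    (h : ∀ v (hv : v ∈ center G), (χ' : C → ℂ) ⟨v, center_le hC hv⟩ = (χ : C → ℂ) ⟨v, center_le hC hv⟩) :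
    χ' ∈ b := by
  haveI := hM.2.1.isPrime
  haveI : Fintype C := Fintype.ofFinite C
  apply mem_of_sameBlock hb hχ
  apply H4.sameBlock_of_regular hM
  intro g hg
  have hg' : ¬ p ∣ orderOf (g : G) := by rw [Subgroup.orderOf_coe]; exact hg
  have h1 := hcen g (hC ▸ g.2) hg'
  have h2 := h g h1
  have h3 := h 1 (Subgroup.one_mem _)
  have e1 : (⟨(g : G), center_le hC h1⟩ : C) = g := rfl
  have e2 : (⟨(1 : G), center_le hC (Subgroup.one_mem _)⟩ : C) = 1 := rfl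
  rw [e1] at h2
  rw [e2] at h3
  unfold centralChar
  rw [h2, h3, sub_self]
  exact mli_zero

end

end Cfsg.Agent.BT
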