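import Cfsg.Agent.BT.PM2F

/-!
Blocks of full defect when `C(P) = P × Z(G)`, `|P| = p`: construction of the data.
-/

set_option autoImplicit false
set_option linter.unusedSectionVars false

open scoped ComplexConjugate

namespace Cfsg.Agent.BT

open Cfsg Subgroup Cfsg.Agent.BR Cfsg.Agent.CycG Cfsg.Agent.Blk Cfsg.Agent.BlkInd Cfsg.Agent.BlkC
open Cfsg.Agent.CharBase (oneIrr)

universe u

section

variable {G : Type u} [Group G] [Fintype G] {p : ℕ} [hp : Fact p.Prime] {P C : Subgroup G}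

open Classical in
/-- block part of a character lying over the block. -/
theorem blockPart_over (hP : Sp p P) {M : Ideal AlgInt} (hM : IsPModular p M)
    (hC : C = centralizer (P : Set G))
    (hcen : ∀ v ∈ centralizer (P : Set G), ¬ p ∣ orderOf v → v ∈ center G) [Fintype C]
    {b : Set (IrrCharacter C)} (hb : IsPBlock M b) {χ : IrrCharacter C} (hχ : χ ∈ b)
    (hone : ∀ ξ : IrrCharacter C, (ξ : C → ℂ) 1 = 1) {ψ : IrrCharacter G}
    (h : ∀ v (hv : v ∈ center G), (ψ : G → ℂ) v =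
      (χ : C → ℂ) ⟨v, center_le hC hv⟩ * (ψ : G → ℂ) 1) (c : C) :
    blockPart b (fun c : C => (ψ : G → ℂ) c) c = (ψ : G → ℂ) c := by
  haveI : Fintype (IrrCharacter C) := Fintype.ofFinite _
  have hcf : IsClassFunction C (fun c : C => (ψ : G → ℂ) c) :=
    fun g h => CharBase.irr_isClassFunction ψ (g : G) (h : G)
  rw [H4.blockPart_eq_sum_ite]
  refine Eq.trans ?_ (CharBase.classFun_apply_eq_sum hcf c).symm
  refine Finset.sum_congr rfl fun ξ _ => ?_
  split_ifs with hξ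
  · rfl
  · symm
    by_cases h0 : classInner (fun c : C => (ψ : G → ℂ) c) (ξ : C → ℂ) = 0
    · rw [h0, zero_mul]
    · exfalso
      apply hξ
      apply mem_of_agree hP hM hC hcen hb hχ
      intro v hv
      have h1 := over_of_inner h0 hv (center_le hC hv)
      rw [h v hv, hone, mul_one] at h1
      exact mul_right_cancel₀ (CharBase.irr_one_ne_zero ψ.2) h1

open Classical in
/-- block part of a character not lying over the block. -/
theorem blockPart_not_over {M : Ideal AlgInt} (hM : IsPModular p M)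
    (hC : C = centralizer (P : Set G)) [Fintype C]
    {b : Set (IrrCharacter C)} {χ : IrrCharacter C}
    (hagree : ∀ ξ ∈ b, ∀ v (hv : v ∈ center G), (ξ : C → ℂ) ⟨v, center_le hC hv⟩ =
      (χ : C → ℂ) ⟨v, center_le hC hv⟩)
    (hone : ∀ ξ : IrrCharacter C, (ξ : C → ℂ) 1 = 1) {ψ : IrrCharacter G} {c : C}
    (hne : blockPart b (fun c : C => (ψ : G → ℂ) c) c ≠ 0) :
    ∀ v (hv : v ∈ center G), (ψ : G → ℂ) v =
      (χ : C → ℂ) ⟨v, center_le hC hv⟩ * (ψ : G → ℂ) 1 := by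
  haveI : Fintype (IrrCharacter C) := Fintype.ofFinite _
  rw [H4.blockPart_eq_sum_ite] at hne
  obtain ⟨ξ, -, hξ⟩ := Finset.exists_ne_zero_of_sum_ne_zero hne
  by_cases hb : ξ ∈ b
  · rw [if_pos hb] at hξ
    intro v hv
    have h1 := over_of_inner (left_ne_zero_of_mul hξ) hv (center_le hC hv)
    rw [hone, mul_one] at h1
    rw [← h1, hagree ξ hb v hv]
  · rw [if_neg hb] at hξ
    exact absurd rfl hξ

/-- **existence of the data**. -/
theorem exists_bd (hP : Sp p P) (hind : ind P ≠ 1)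
    (hcen : ∀ v ∈ centralizer (P : Set G), ¬ p ∣ orderOf v → v ∈ center G) (ψ0 : IrrCharacter G)
    (hψ0 : ¬ p ∣ dg ψ0) : Nonempty (BD p P ψ0) := by
  classical
  obtain ⟨M, hM⟩ := Glaub.exists_isPModular hp.out
  haveI := hM.2.1.isPrime
  obtain ⟨C, hC⟩ : ∃ C : Subgroup G, C = centralizer (P : Set G) := ⟨_, rfl⟩
  haveI : Fintype C := Fintype.ofFinite C
  haveI : Fintype P := Fintype.ofFinite P
  haveI : Fintype (IrrCharacter C) := Fintype.ofFinite _
  haveI : Fintype (normalizer (P : Set G)) := Fintype.ofFinite _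
  have hPC : P ≤ C := by rw [hC]; exact le_centralizer_of_prime hP.card
  have hPp : IsPGroup p P := IsPGroup.of_card (n := 1) (by rw [hP.card, pow_one])
  have hNC : normalizer (P : Set G) ≤ normalizer (C : Set G) := by
    rw [hC]; exact normalizer_le_normalizer_centralizer P
  obtain ⟨B, b, hψB, hBD, hb⟩ := exists_blk hP hM hC ψ0 hψ0
  have hone : ∀ ξ : IrrCharacter C, (ξ : C → ℂ) 1 = 1 := fun ξ =>
    H79.linear_of_comm (C_comm hP hC hcen) ξ
  have hdef := defect_of_ind hM hPC hC hb hBD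
  have hZ := subgroupOf_le_center (D := P) hC
  have hagree0 : ∀ ξ ∈ b, ∀ ξ' ∈ b, ∀ v (hv : v ∈ center G),
      (ξ : C → ℂ) ⟨v, center_le hC hv⟩ = (ξ' : C → ℂ) ⟨v, center_le hC hv⟩ := by
    intro ξ hξ ξ' hξ' v hv
    apply eq_on_reg hM hb.1 hdef hZ hξ hξ'
    rw [Subgroup.orderOf_mk]
    exact center_reg hP hind hv
  have hT : ∀ g, g ∈ normalizer (P : Set G) ↔
      g ∈ normalizer (P : Set G) ∧ StabilizesBlock C b g := by
    intro g
    refine ⟨fun hg => ⟨hg, hNC hg, fun χ hχ => ⟨cjI g χ, ?_, (isConjCharOf_cjI (hNC hg) _ _).2 rfl⟩⟩,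
      fun h => h.1⟩
    apply mem_of_agree hP hM hC hcen hb.1 hχ
    intro v hv
    apply cjI_apply (hNC hg)
    have := (Subgroup.mem_center_iff.1 hv) g
    simp only
    rw [this, mul_inv_cancel_right]
  obtain ⟨χ1, d, h1P, hcard, hrk⟩ := s4696_prime hM hP.card hBD hC hb hT
  have hex : ∃ χ ∈ b, χ ≠ χ1 := by
    by_contra hcon
    push Not at hcon
    have h1 : b = {χ1} := by
      ext χ
      rw [Set.mem_singleton_iff]
      exact ⟨fun h => hcon χ h, fun h => h ▸ d.one_mem⟩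
    rw [h1] at hcard
    simp only [Nat.card_unique] at hcard
    exact hp.out.one_lt.ne hcard
  obtain ⟨θ, ε, δ, o, -⟩ := d.main hM hrk hex ψ0
  have hindP : C.relIndex (normalizer (P : Set G)) = ind P := by rw [ind, hC]
  have hps1 : ∀ x ∈ P, x ≠ 1 → Sup p P x := by
    intro x hx hx1
    have := sup_of_mem (v := 1) hP.card hx hx1 (Subgroup.one_mem _) not_dvd_orderOf_one
    rwa [mul_one] at this
  have hPbot : P ≠ ⊥ := d.D1_ne_bot
  have hord : ∀ c : C, Sup p P (c : G) → p ∣ orderOf c := by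
    intro c hc
    have := hc.dvd_orderOf hp.out hPbot
    rwa [Subgroup.orderOf_coe] at this
  -- everything in `B` lies over `χ1`
  have hXv : ∀ ψ ∈ B, ¬ Exc b χ1 θ ψ → ∀ x (hx : x ∈ P), x ≠ 1 →
      blockPart b (fun c : C => (ψ : G → ℂ) c) ⟨x, hPC hx⟩ = ε ψ := by
    intro ψ hψ hne x hx hx1
    rw [d.blockPart_nonexc hM o hψ hne (hord ⟨x, hPC hx⟩ (hps1 x hx hx1)), h1P _ hx, hone, mul_one]
  have hYv : ∀ χ0 ∈ b, χ0 ≠ χ1 → ∑ x ∈ (Finset.univ : Finset P).erase 1,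
      blockPart b (fun c : C => (θ χ0 : G → ℂ) c) ⟨x, hPC x.2⟩ = δ * ind P := by
    intro χ0 hχ0 h01
    obtain ⟨O, hOc, hOm, hOv⟩ := d.exists_orbit hM o hχ0 h01
    have h2 : ∀ x ∈ (Finset.univ : Finset P).erase 1,
        blockPart b (fun c : C => (θ χ0 : G → ℂ) c) ⟨x, hPC x.2⟩ =
        - (δ : ℂ) * ∑ χ ∈ O, (χ : C → ℂ) ⟨x, hPC x.2⟩ := by
      intro x hx
      have hx1 : (x : G) ≠ 1 := fun h => (Finset.mem_erase.1 hx).1 (Subtype.ext h)
      exact hOv _ (hord ⟨x, hPC x.2⟩ (hps1 x x.2 hx1))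
    rw [Finset.sum_congr rfl h2, ← Finset.mul_sum, Finset.sum_comm]
    have h5 : ∀ χ ∈ O, ∑ x ∈ (Finset.univ : Finset P).erase 1, (χ : C → ℂ) ⟨x, hPC x.2⟩ = -1 := by
      intro χ hχ
      obtain ⟨hχf', hχ1⟩ := hOm χ hχ
      have h6 := sum_P_eq_zero hM hPC hC d.hf hdef d.one_mem h1P hχf' hχ1
      rw [sum_P_split (fun x : P => (χ : C → ℂ) ⟨x, hPC x.2⟩)] at h6
      have h7 : (χ : C → ℂ) ⟨((1 : P) : G), hPC (1 : P).2⟩ = 1 := hone χ
      rw [h7] at h6
      linear_combination h6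
    rw [Finset.sum_congr rfl h5, Finset.sum_const, nsmul_eq_mul, hOc, hindP]
    ring
  have hind0 : (ind P : ℂ) ≠ 0 := by
    intro h
    have h1 : ind P = 0 := by exact_mod_cast h
    have h2 := CycDat.relIndex_mul_card (C := C) (T := normalizer (P : Set G))
      (by rw [hC]; exact centralizer_le_normalizer P)
    rw [hindP, h1, mul_zero] at h2
    exact Nat.card_pos.ne h2
  have hδ0 : (δ : ℂ) ≠ 0 := by
    rcases o.delta with h | h <;> rw [h] <;> norm_num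
  have hover : ∀ ψ ∈ B, ∀ v (hv : v ∈ center G), (ψ : G → ℂ) v =
      (χ1 : C → ℂ) ⟨v, center_le hC hv⟩ * (ψ : G → ℂ) 1 := by
    intro ψ hψ
    obtain ⟨x, hx, hx1⟩ := exists_ne_one hP
    by_cases hE : Exc b χ1 θ ψ
    · obtain ⟨χ0, hχ0, h01, rfl⟩ := hE
      have h1 := hYv χ0 hχ0 h01
      obtain ⟨y, -, hy⟩ := Finset.exists_ne_zero_of_sum_ne_zero
        (by rw [h1]; exact mul_ne_zero hδ0 hind0)
      exact blockPart_not_over hM hC (fun ξ hξ => hagree0 ξ hξ χ1 d.one_mem) hone hy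
    · refine blockPart_not_over hM hC (fun ξ hξ => hagree0 ξ hξ χ1 d.one_mem) hone
        (c := ⟨x, hPC hx⟩) ?_
      rw [hXv ψ hψ hE x hx hx1]
      rcases o.eps ψ with h | h <;> rw [h] <;> norm_num
  have hpart : ∀ ψ ∈ B, ∀ c : C, blockPart b (fun c : C => (ψ : G → ℂ) c) c = (ψ : G → ℂ) c :=
    fun ψ hψ c => blockPart_over hP hM hC hcen hb.1 d.one_mem hone (hover ψ hψ) c
  have hXval : ∀ ψ ∈ CycOut.Xf B b χ1 θ, ∀ x ∈ P, x ≠ 1 → (ψ : G → ℂ) x = ε ψ := by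
    intro ψ hψ x hx hx1
    obtain ⟨h1, h2⟩ := CycOut.mem_Xf.1 hψ
    rw [← hXv ψ h1 h2 x hx hx1]
    exact (hpart ψ h1 ⟨x, hPC hx⟩).symm
  have hcX := o.card_Xf
  rw [hindP] at hcX
  obtain ⟨ψ1, hψ1⟩ : (CycOut.Xf B b χ1 θ).Nonempty := by
    rw [← Finset.card_pos, hcX]
    apply Nat.pos_of_ne_zero
    intro h
    exact hind0 (by rw [h]; simp)
  have hov : ∀ ψ ∈ B, Ov ψ0 ψ := by
    intro ψ hψ v hv
    rw [hover ψ hψ v hv, hover ψ0 hψB v hv]
    ring
  have hBor : ∀ ψ : IrrCharacter G, ψ ∈ B → ψ ∈ CycOut.Xf B b χ1 θ ∨ ψ ∈ CycOut.Yf B b χ1 θ := by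
    intro ψ hψ
    by_cases hE : Exc b χ1 θ ψ
    · exact Or.inr (CycOut.mem_Yf.2 ⟨hψ, hE⟩)
    · exact Or.inl (CycOut.mem_Xf.2 ⟨hψ, hE⟩)
  refine ⟨{
    X := CycOut.Xf B b χ1 θ
    Y := CycOut.Yf B b χ1 θ
    ε := ε
    δ := δ
    disj := ?_
    mem0 := hBor ψ0 hψB
    cardX := hcX
    cardY := ?_
    sgn := o.eps
    sgn₀ := o.delta
    val := hXval
    sumY := ?_
    valY := ?_
    reg := ?_
    ov := ?_
    out := ?_ }⟩
  · rw [Finset.disjoint_left]
    intro a ha hb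
    exact (CycOut.mem_Xf.1 ha).2 (CycOut.mem_Yf.1 hb).2
  · have h := o.card_Yf
    rw [hcard, hindP] at h
    exact h
  · intro x hx hx1
    obtain ⟨h1, h2⟩ := CycOut.mem_Xf.1 hψ1
    have h3 := o.nonexc_exc_sing h1 h2 (g := x) (by rw [hP.orderOf_eq hx hx1])
    rw [hXval ψ1 hψ1 x hx hx1] at h3
    have h4 : (ε ψ1 : ℂ) * ε ψ1 = 1 := by
      rcases o.eps ψ1 with h | h <;> rw [h] <;> norm_num
    have h5 : (δ : ℂ) * δ = 1 := by
      rcases o.delta with h | h <;> rw [h] <;> norm_num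
    rw [h4] at h3
    have h6 := congrArg (fun z => (δ : ℂ) * z) h3
    simp only [mul_one] at h6
    rw [← mul_assoc, h5, one_mul] at h6
    exact h6.symm
  · intro ψ hψ
    obtain ⟨h1, χ0, hχ0, h01, rfl⟩ := CycOut.mem_Yf.1 hψ
    rw [finsum_eq_sum_of_fintype, sum_P_split (fun x : P => (θ χ0 : G → ℂ) x)]
    congr 1
    · exact dg_eq _
    · rw [← hYv χ0 hχ0 h01]
      refine Finset.sum_congr rfl fun x _ => ?_
      exact (hpart _ h1 ⟨x, hPC x.2⟩).symm
  · intro g hg ψ hψ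
    obtain ⟨h1, χ0, hχ0, h01, rfl⟩ := CycOut.mem_Yf.1 hψ
    exact o.reg_rel hχ0 h01 hg
  · rintro ψ (h | h)
    · exact hov ψ (CycOut.mem_Xf.1 h).1
    · exact hov ψ (CycOut.mem_Yf.1 h).1
  · intro ψ hX hY ho x hx hx1
    have h1 : ψ ∉ B := by
      intro h
      rcases hBor ψ h with h2 | h2
      · exact hX h2
      · exact hY h2
    have h2 := blockPart_eq_zero hM hC hb h1 (h := ⟨x, hPC hx⟩) (hps1 x hx hx1)
    rw [blockPart_over hP hM hC hcen hb.1 d.one_mem hone (ψ := ψ) ?_ ⟨x, hPC hx⟩] at h2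
    · exact h2
    · intro v hv
      have h3 := ho v hv
      rw [hover ψ0 hψB v hv] at h3
      apply mul_right_cancel₀ (CharBase.irr_one_ne_zero ψ0.2)
      rw [h3]; ring

end

end Cfsg.Agent.BT
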