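import Cfsg.Agent.BT.PM2G

/-!
Counting products of two involutions over the central characters.
-/

set_option autoImplicit false
set_option linter.unusedSectionVars false

open scoped ComplexConjugate

namespace Cfsg.Agent.BT

open Cfsg Subgroup Cfsg.Agent.BR Cfsg.Agent.CycG Cfsg.Agent.Blk Cfsg.Agent.BlkInd Cfsg.Agent.BlkC
open Cfsg.Agent.CharBase (oneIrr)

universe u

section

variable {G : Type u} [Group G] [Fintype G] {p : ℕ} [hp : Fact p.Prime] {P C : Subgroup G}

/-- the central character. -/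
noncomputable def omH (ψ : IrrCharacter G) : center G →* ℂ where
  toFun z := (ψ : G → ℂ) z / (ψ : G → ℂ) 1
  map_one' := div_self (CharBase.irr_one_ne_zero ψ.2)
  map_mul' a b := by
    have h0 := CharBase.irr_one_ne_zero ψ.2
    have h1 := mul_central ψ b.2 (a : G)
    rw [Subgroup.coe_mul]
    field_simp
    linear_combination h1

theorem omH_apply (ψ : IrrCharacter G) (z : center G) :
    omH ψ z = (ψ : G → ℂ) z / (ψ : G → ℂ) 1 := rfl

theorem val_mul_center (ψ : IrrCharacter G) (g : G) (z : center G) :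
    (ψ : G → ℂ) (g * z) = (ψ : G → ℂ) g * omH ψ z := by
  have h0 := CharBase.irr_one_ne_zero ψ.2
  have h1 := mul_central ψ z.2 g
  rw [omH_apply]
  field_simp
  linear_combination h1

theorem ov_iff (ψ0 ψ : IrrCharacter G) : Ov ψ0 ψ ↔ omH ψ = omH ψ0 := by
  have h0 := CharBase.irr_one_ne_zero ψ.2
  have h0' := CharBase.irr_one_ne_zero ψ0.2
  constructor
  · intro h
    ext z
    rw [omH_apply, omH_apply, div_eq_div_iff h0 h0']
    exact h z z.2
  · intro h z hz
    have h1 := DFunLike.congr_fun h ⟨z, hz⟩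
    rw [omH_apply, omH_apply, div_eq_div_iff h0 h0'] at h1
    exact h1

open Classical in
theorem om_orth [Fintype (center G)] (ψ0 ψ : IrrCharacter G) :
    ∑ z : center G, omH ψ z * omH ψ0 z⁻¹ = if Ov ψ0 ψ then (Nat.card (center G) : ℂ) else 0 := by
  split_ifs with h
  · rw [ov_iff] at h
    rw [Finset.sum_congr rfl (g := fun _ => (1 : ℂ))]
    · rw [Finset.sum_const, nsmul_eq_mul, mul_one, Finset.card_univ, ← Nat.card_eq_fintype_card]
    · intro z _
      rw [h, ← map_mul, mul_inv_cancel, map_one]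
  · let f : center G →* ℂ :=
      { toFun := fun z => omH ψ z * omH ψ0 z⁻¹
        map_one' := by simp
        map_mul' := by
          intro a b
          rw [mul_inv_rev, map_mul, map_mul]
          ring }
    have hf : f ≠ 1 := by
      intro hf
      apply h
      rw [ov_iff]
      ext z
      have h1 : omH ψ z * omH ψ0 z⁻¹ = 1 := by
        have : f z = 1 := by rw [hf]; rfl
        exact this
      have h2 : omH ψ0 z⁻¹ * omH ψ0 z = 1 := by rw [← map_mul, inv_mul_cancel, map_one]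
      calc omH ψ z = (omH ψ z * omH ψ0 z⁻¹) * omH ψ0 z := by rw [mul_assoc, h2, mul_one]
        _ = omH ψ0 z := by rw [h1, one_mul]
    exact sum_hom_units_eq_zero f hf

/-- no product of two elements of square one is `(x z)⁻¹`, `z ≠ 1` central. -/
theorem T_eq_zero (hP : Sp p P) (hind : ind P ≠ 1) (hodd : ∀ z ∈ center G, z * z = 1 → z = 1)
    [Fintype (IrrCharacter G)] {y x : G} (hy : y * y = 1) (hx : x ∈ P) (hx1 : x ≠ 1) {z : G}
    (hz : z ∈ center G) (hz1 : z ≠ 1) :
    ∑ ψ : IrrCharacter G, (ψ : G → ℂ) y * (ψ : G → ℂ) y * (ψ : G → ℂ) (x * z) / (ψ : G → ℂ) 1 = 0 := by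
  classical
  have h1 := H79.card_pairs y y (x * z)⁻¹
  rw [inv_inv] at h1
  have h2 : ((Finset.univ : Finset (G × G)).filter
      (fun q => q.1 * y * q.1⁻¹ * (q.2 * y * q.2⁻¹) = (x * z)⁻¹)) = ∅ := by
    rw [Finset.filter_eq_empty_iff]
    rintro ⟨a, b⟩ - h
    simp only at h
    set s := a * y * a⁻¹ with hs
    set t := b * y * b⁻¹ with ht
    have hss : s * s = 1 := by
      rw [hs]
      calc a * y * a⁻¹ * (a * y * a⁻¹) = a * (y * y) * a⁻¹ := by group
        _ = 1 := by rw [hy]; group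
    have htt : t * t = 1 := by
      rw [ht]
      calc b * y * b⁻¹ * (b * y * b⁻¹) = b * (y * y) * b⁻¹ := by group
        _ = 1 := by rw [hy]; group
    have hc := Subgroup.mem_center_iff.1 hz
    -- `t s = x z`
    have hts : t * s = x * z := by
      have h3 : (s * t) * (t * s) = 1 := by
        calc s * t * (t * s) = s * (t * t) * s := by group
          _ = 1 := by rw [htt, mul_one, hss]
      rw [h] at h3
      calc t * s = (x * z) * ((x * z)⁻¹ * (t * s)) := by group
        _ = x * z := by rw [h3, mul_one]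
    -- `s (xz)⁻¹ s = x z`
    have h4 : s * (x * z)⁻¹ * s = x * z := by
      rw [← h, ← hts]
      calc s * (s * t) * s = (s * s) * t * s := by group
        _ = t * s := by rw [hss, one_mul]
    -- `s x⁻¹ s = x z²`
    have h5 : s * x⁻¹ * s⁻¹ = x * (z * z) := by
      have hsi : s⁻¹ = s := inv_eq_of_mul_eq_one_right hss
      rw [hsi]
      have h6 : s * (x * z)⁻¹ * s * z = s * x⁻¹ * s := by
        rw [mul_inv_rev]
        have e1 : z⁻¹ ∈ center G := (center G).inv_mem hz
        have e2 := (Subgroup.mem_center_iff.1 e1) s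
        calc s * (z⁻¹ * x⁻¹) * s * z = (s * z⁻¹) * x⁻¹ * (s * z) := by group
          _ = (z⁻¹ * s) * x⁻¹ * (z * s) := by rw [e2, hc s]
          _ = z⁻¹ * (s * x⁻¹ * z) * s := by group
          _ = z⁻¹ * (z * (s * x⁻¹)) * s := by rw [hc (s * x⁻¹)]
          _ = s * x⁻¹ * s := by group
      rw [← h6, h4]
      group
    have h7 : (s * x⁻¹ * s⁻¹) ^ p = 1 := by
      rw [conj_pow, inv_pow, ← hP.orderOf_eq hx hx1, pow_orderOf_eq_one]
      group
    have hcomm : Commute x (z * z) := by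
      have : z * z ∈ center G := (center G).mul_mem hz hz
      exact (Subgroup.mem_center_iff.1 this) x
    rw [h5, hcomm.mul_pow, ← hP.orderOf_eq hx hx1, pow_orderOf_eq_one, one_mul,
      hP.orderOf_eq hx hx1] at h7
    have h8 : z ^ (2 * p) = 1 := by rw [pow_mul, pow_two]; exact h7
    have h9 := orderOf_dvd_of_pow_eq_one h8
    have h10 : (orderOf z).Coprime p :=
      ((Nat.Prime.coprime_iff_not_dvd hp.out).2 (center_reg hP hind hz)).symm
    have h11 := h10.dvd_of_dvd_mul_right h9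
    apply hz1
    apply hodd z hz
    rw [← pow_two]
    exact orderOf_dvd_iff_pow_eq_one.mp h11
  rw [h2, Finset.card_empty, Nat.cast_zero] at h1
  have h3 : (Nat.card G : ℂ) ≠ 0 := by exact_mod_cast Nat.card_pos.ne'
  exact (mul_eq_zero.mp h1.symm).resolve_left h3

/-- **the central averages**. -/
theorem S_eq (hP : Sp p P) (hind : ind P ≠ 1) (hodd : ∀ z ∈ center G, z * z = 1 → z = 1)
    [Fintype (IrrCharacter G)] {y x : G} (hy : y * y = 1) (hyp : ¬ p ∣ orderOf y) (hx : x ∈ P)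
    (hx1 : x ≠ 1) {ψ0 : IrrCharacter G} (d : BD p P ψ0) {θ : IrrCharacter G} (hθ : θ ∈ d.Y) :
    ∑ ψ : IrrCharacter G, (ψ : G → ℂ) y * (ψ : G → ℂ) y * (ψ : G → ℂ) x / (ψ : G → ℂ) 1 =
    (Nat.card (center G) : ℂ) * (∑ ψ ∈ d.X, (d.ε ψ : ℂ) * ((ψ : G → ℂ) y * (ψ : G → ℂ) y) /
      (dg ψ : ℂ) + d.δ * ((θ : G → ℂ) y * (θ : G → ℂ) y) / (dg θ : ℂ)) := by
  classical
  haveI : Fintype (center G) := Fintype.ofFinite _
  -- the sum over the centre
  have h1 : ∑ z : center G, (∑ ψ : IrrCharacter G,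
      (ψ : G → ℂ) y * (ψ : G → ℂ) y * (ψ : G → ℂ) (x * z) / (ψ : G → ℂ) 1) * omH ψ0 z⁻¹ =
      ∑ ψ : IrrCharacter G, (ψ : G → ℂ) y * (ψ : G → ℂ) y * (ψ : G → ℂ) x / (ψ : G → ℂ) 1 := by
    rw [Finset.sum_eq_single (1 : center G)]
    · rw [inv_one, map_one, mul_one, Subgroup.coe_one, mul_one]
    · intro z _ hz
      rw [T_eq_zero hP hind hodd hy hx hx1 z.2 (fun h => hz (Subtype.ext h)), zero_mul]
    · intro h; exact absurd (Finset.mem_univ _) h
  rw [← h1]
  have h2 : ∑ z : center G, (∑ ψ : IrrCharacter G,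
      (ψ : G → ℂ) y * (ψ : G → ℂ) y * (ψ : G → ℂ) (x * z) / (ψ : G → ℂ) 1) * omH ψ0 z⁻¹ =
      ∑ ψ : IrrCharacter G, (ψ : G → ℂ) y * (ψ : G → ℂ) y * (ψ : G → ℂ) x / (ψ : G → ℂ) 1 *
        (if Ov ψ0 ψ then (Nat.card (center G) : ℂ) else 0) := by
    simp only [Finset.sum_mul]
    rw [Finset.sum_comm]
    refine Finset.sum_congr rfl fun ψ _ => ?_
    rw [← om_orth, Finset.mul_sum]
    refine Finset.sum_congr rfl fun z _ => ?_
    rw [val_mul_center]
    ring
  rw [h2]
  have h3 : ∀ ψ : IrrCharacter G, (ψ : G → ℂ) y * (ψ : G → ℂ) y * (ψ : G → ℂ) x / (ψ : G → ℂ) 1 *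
        (if Ov ψ0 ψ then (Nat.card (center G) : ℂ) else 0) =
      (if ψ ∈ d.X then (Nat.card (center G) : ℂ) * ((d.ε ψ : ℂ) *
        ((ψ : G → ℂ) y * (ψ : G → ℂ) y) / (dg ψ : ℂ)) else 0) +
      (if ψ ∈ d.Y then (Nat.card (center G) : ℂ) * (((θ : G → ℂ) y * (θ : G → ℂ) y) / (dg θ : ℂ)) *
        (ψ : G → ℂ) x else 0) := by
    intro ψ
    by_cases hX : ψ ∈ d.X
    · have hY : ψ ∉ d.Y := Finset.disjoint_left.mp d.disj hX
      rw [if_pos hX, if_neg hY, if_pos (d.ov ψ (Or.inl hX)), d.val ψ hX x hx hx1, dg_eq]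
      ring
    · by_cases hY : ψ ∈ d.Y
      · rw [if_neg hX, if_pos hY, if_pos (d.ov ψ (Or.inr hY))]
        have e1 := d.reg y hyp ψ hY
        have e2 := d.reg y hyp θ hθ
        have e3 := d.reg 1 not_dvd_orderOf_one ψ hY
        have e4 := d.reg 1 not_dvd_orderOf_one θ hθ
        have hδ : (d.δ : ℂ) ≠ 0 := by
          rcases d.sgn₀ with h | h <;> rw [h] <;> norm_num
        have e5 : (ψ : G → ℂ) y = (θ : G → ℂ) y := by
          apply mul_left_cancel₀ hδ
          linear_combination e1 - e2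
        have e6 : (ψ : G → ℂ) 1 = (θ : G → ℂ) 1 := by
          apply mul_left_cancel₀ hδ
          linear_combination e3 - e4
        rw [e5, e6, dg_eq]
        ring
      · rw [if_neg hX, if_neg hY, zero_add]
        split_ifs with h
        · rw [d.out ψ hX hY h x hx hx1]; ring
        · rw [mul_zero]
  rw [Finset.sum_congr rfl fun ψ _ => h3 ψ, Finset.sum_add_distrib, Finset.sum_ite_mem,
    Finset.sum_ite_mem, Finset.univ_inter, Finset.univ_inter, ← Finset.mul_sum, ← Finset.mul_sum,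
    d.sumY x hx hx1]
  ring

end

end Cfsg.Agent.BT
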