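import Cfsg.Agent.BT.PM2H

/-!
Involutions inverting `P`, and the numerical contradiction.
-/

set_option autoImplicit false
set_option linter.unusedSectionVars false

open scoped ComplexConjugate

namespace Cfsg.Agent.BT

open Cfsg Subgroup Cfsg.Agent.BR Cfsg.Agent.CycG
open Cfsg.Agent.CharBase (oneIrr)

universe u

/-! ### numbers -/

theorem num_a {p k a b w : ℝ} (hp : 7 ≤ p) (hk : 1 ≤ k) (hb : b = a + w) (hw : w ^ 2 = 1)
    (ha1 : |a| ≤ k + 1) (hb1 : |b| ≤ k) :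
    a ^ 2 / (p * k + 1) - b ^ 2 / (p * (k + 1) - 1) ≤ 7 / (2 * p) := by
  have hA : 0 < p * k + 1 := by nlinarith
  have hB : 0 < p * (k + 1) - 1 := by nlinarith
  have hAB : p * k + 1 ≤ p * (k + 1) - 1 := by nlinarith
  have h1 : a ^ 2 ≤ (k + 1) ^ 2 := by
    rw [← sq_abs a]; exact pow_le_pow_left₀ (abs_nonneg _) ha1 2
  have h2 : b ^ 2 ≤ k ^ 2 := by
    rw [← sq_abs b]; exact pow_le_pow_left₀ (abs_nonneg _) hb1 2
  have hwa : -(k + 1) ≤ a * w := by
    have h3 : |a * w| ≤ k + 1 := by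
      rw [abs_mul]
      have : |w| = 1 := by
        have h4 : |w| ^ 2 = 1 := by rw [sq_abs]; exact hw
        nlinarith [abs_nonneg w]
      rw [this, mul_one]; exact ha1
    exact (abs_le.mp h3).1
  have h3 : k ^ 2 - b ^ 2 ≤ (k + 1) ^ 2 - a ^ 2 := by
    rw [hb]; nlinarith
  have h4 : a ^ 2 * (p * (k + 1) - 1) - b ^ 2 * (p * k + 1) ≤
      (k + 1) ^ 2 * (p * (k + 1) - 1) - k ^ 2 * (p * k + 1) := by
    have h5 : (p * k + 1) * (k ^ 2 - b ^ 2) ≤ (p * k + 1) * ((k + 1) ^ 2 - a ^ 2) :=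
      mul_le_mul_of_nonneg_left h3 hA.le
    have h6 : (p * k + 1) * ((k + 1) ^ 2 - a ^ 2) ≤ (p * (k + 1) - 1) * ((k + 1) ^ 2 - a ^ 2) :=
      mul_le_mul_of_nonneg_right hAB (by linarith)
    linarith
  rw [div_sub_div _ _ hA.ne' hB.ne', div_le_div_iff₀ (mul_pos hA hB) (by linarith)]
  have h5 : (0 : ℝ) ≤ k ^ 2 + k - 2 := by nlinarith
  have h6 : 0 ≤ (k ^ 2 + k - 2) * p ^ 2 := mul_nonneg h5 (sq_nonneg p)
  have h7 : 2 * p * ((k + 1) ^ 2 * (p * (k + 1) - 1) - k ^ 2 * (p * k + 1)) ≤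
      7 * ((p * k + 1) * (p * (k + 1) - 1)) := by nlinarith
  have h8 : 2 * p * (a ^ 2 * (p * (k + 1) - 1) - b ^ 2 * (p * k + 1)) ≤
      2 * p * ((k + 1) ^ 2 * (p * (k + 1) - 1) - k ^ 2 * (p * k + 1)) :=
    mul_le_mul_of_nonneg_left h4 (by linarith)
  linarith

theorem num_b {p m s : ℝ} (hp : 7 ≤ p) (hm : 1 ≤ m) (hs : |s| ≤ m + 1) :
    (p - 1) ^ 2 / ((p + 1) * (p + 2)) ≤
      (m * p + 1 - s) ^ 2 / ((m * p + 1) * (m * p + 2)) := by
  have h1 : m * (p - 1) ≤ m * p + 1 - s := by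
    have := (abs_le.mp hs).2
    linarith
  have h2 : 0 ≤ m * (p - 1) := mul_nonneg (by linarith) (by linarith)
  have h3 : (m * (p - 1)) ^ 2 ≤ (m * p + 1 - s) ^ 2 := pow_le_pow_left₀ h2 h1 2
  have hmp : 0 < m * p := by nlinarith
  rw [div_le_div_iff₀ (by nlinarith) (by nlinarith)]
  have h4 : (m * p + 1) * (m * p + 2) ≤ m ^ 2 * ((p + 1) * (p + 2)) := by
    have e1 : m * p + 1 ≤ m * (p + 1) := by nlinarith
    have e2 : m * p + 2 ≤ m * (p + 2) := by nlinarith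
    calc (m * p + 1) * (m * p + 2) ≤ (m * (p + 1)) * (m * (p + 2)) :=
          mul_le_mul e1 e2 (by linarith) (by nlinarith)
      _ = _ := by ring
  calc (p - 1) ^ 2 * ((m * p + 1) * (m * p + 2)) ≤ (p - 1) ^ 2 * (m ^ 2 * ((p + 1) * (p + 2))) :=
        mul_le_mul_of_nonneg_left h4 (sq_nonneg _)
    _ = (m * (p - 1)) ^ 2 * ((p + 1) * (p + 2)) := by ring
    _ ≤ _ := mul_le_mul_of_nonneg_right h3 (by nlinarith)

theorem num_b' {p m s : ℝ} (hp : 7 ≤ p) (hm : 1 ≤ m) (hs : |s| ≤ m - 1) :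
    (p - 1) ^ 2 / ((p + 1) * (p + 2)) ≤
      (m * p - 1 - s) ^ 2 / ((m * p - 1) * (m * p - 2)) := by
  have h1 : m * (p - 1) ≤ m * p - 1 - s := by
    have := (abs_le.mp hs).2
    linarith
  have h2 : 0 ≤ m * (p - 1) := mul_nonneg (by linarith) (by linarith)
  have h3 : (m * (p - 1)) ^ 2 ≤ (m * p - 1 - s) ^ 2 := pow_le_pow_left₀ h2 h1 2
  have hmp : 7 ≤ m * p := by nlinarith
  rw [div_le_div_iff₀ (by nlinarith) (by nlinarith)]
  have h4 : (m * p - 1) * (m * p - 2) ≤ m ^ 2 * ((p + 1) * (p + 2)) := by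
    have e1 : m * p - 1 ≤ m * (p + 1) := by nlinarith
    have e2 : m * p - 2 ≤ m * (p + 2) := by nlinarith
    calc (m * p - 1) * (m * p - 2) ≤ (m * (p + 1)) * (m * (p + 2)) :=
          mul_le_mul e1 e2 (by linarith) (by nlinarith)
      _ = _ := by ring
  calc (p - 1) ^ 2 * ((m * p - 1) * (m * p - 2)) ≤ (p - 1) ^ 2 * (m ^ 2 * ((p + 1) * (p + 2))) :=
        mul_le_mul_of_nonneg_left h4 (sq_nonneg _)
    _ = (m * (p - 1)) ^ 2 * ((p + 1) * (p + 2)) := by ring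
    _ ≤ _ := mul_le_mul_of_nonneg_right h3 (by nlinarith)

theorem num_c {p : ℝ} (hp : 11 ≤ p) :
    7 / (2 * p) + 1 / (p - 2) < (p - 1) ^ 2 / ((p + 1) * (p + 2)) := by
  have h1 : 7 / (2 * p) + 1 / (p - 2) ≤ 1 / 2 := by
    rw [div_add_div _ _ (by linarith) (by linarith), div_le_div_iff₀ (by nlinarith) (by norm_num)]
    nlinarith
  have h2 : 1 / 2 < (p - 1) ^ 2 / ((p + 1) * (p + 2)) := by
    rw [div_lt_div_iff₀ (by norm_num) (by nlinarith)]
    nlinarith
  linarith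

theorem num_a7 {k a : ℝ} (hk : 1 ≤ k) (ha : |a| ≤ k - 1) :
    a ^ 2 / (7 * k + 1) - (a + 1) ^ 2 / (7 * k + 6) < 2 / 5 := by
  obtain ⟨h1, h2⟩ := abs_le.mp ha
  rw [div_sub_div _ _ (by linarith) (by linarith), div_lt_div_iff₀ (by nlinarith) (by norm_num)]
  have h3 : a ^ 2 ≤ (k - 1) ^ 2 := by
    rw [← sq_abs a]; exact pow_le_pow_left₀ (abs_nonneg _) ha 2
  have h4 : -(70 * k + 10) * a ≤ (70 * k + 10) * (k - 1) := by nlinarith
  nlinarith

theorem num_b7 {m s : ℝ} (hm : 2 ≤ m) (hs : |s| ≤ m + 1) :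
    3 / 5 ≤ (m * 7 + 1 - s) ^ 2 / ((m * 7 + 1) * (m * 7 + 2)) := by
  have h1 : m * 6 ≤ m * 7 + 1 - s := by
    have := (abs_le.mp hs).2
    linarith
  have h3 : (m * 6) ^ 2 ≤ (m * 7 + 1 - s) ^ 2 := pow_le_pow_left₀ (by linarith) h1 2
  rw [div_le_div_iff₀ (by norm_num) (by nlinarith)]
  nlinarith

theorem num_b7' {m s : ℝ} (hm : 1 ≤ m) (hs : |s| ≤ m - 1) :
    3 / 5 ≤ (m * 7 - 1 - s) ^ 2 / ((m * 7 - 1) * (m * 7 - 2)) := by
  have h1 : m * 6 ≤ m * 7 - 1 - s := by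
    have := (abs_le.mp hs).2
    linarith
  have h3 : (m * 6) ^ 2 ≤ (m * 7 - 1 - s) ^ 2 := pow_le_pow_left₀ (by linarith) h1 2
  rw [div_le_div_iff₀ (by norm_num) (by nlinarith)]
  nlinarith

/-- the final numerical contradiction. -/
theorem num_final {p k m : ℕ} {a b w s : ℤ} (hp : p = 7 ∨ 11 ≤ p) (hk : 1 ≤ k) (hm : 1 ≤ m)
    (hb : b = a + w) (hw : w = 1 ∨ w = -1) (ha1 : |a| ≤ k + 1) (hb1 : |b| ≤ k)
    (hw4 : (4 : ℤ) ∣ (p - 2) - w) (ha4 : (4 : ℤ) ∣ (p * k + 1) - a)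
    {S : ℝ} (hS : S = (a : ℝ) ^ 2 / (p * k + 1) - (b : ℝ) ^ 2 / (p * (k + 1) - 1) + 1 / (p - 2))
    (hS' : (|s| ≤ m + 1 ∧ (4 : ℤ) ∣ (m * p + 1) - s ∧
        S = ((m : ℝ) * p + 1 - s) ^ 2 / ((m * p + 1) * (m * p + 2))) ∨
      (|s| ≤ m - 1 ∧ S = ((m : ℝ) * p - 1 - s) ^ 2 / ((m * p - 1) * (m * p - 2)))) : False := by
  have hkr : (1 : ℝ) ≤ k := by exact_mod_cast hk
  have hmr : (1 : ℝ) ≤ m := by exact_mod_cast hm
  have hwr : (w : ℝ) ^ 2 = 1 := by
    rcases hw with h | h <;> rw [h] <;> norm_num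
  have hbr : (b : ℝ) = a + w := by rw [hb]; push_cast; ring
  have ha1r : |(a : ℝ)| ≤ k + 1 := by exact_mod_cast ha1
  have hb1r : |(b : ℝ)| ≤ k := by exact_mod_cast hb1
  rcases hp with rfl | hp
  · -- `p = 7`
    have hw1 : w = 1 := by
      rcases hw with h | h
      · exact h
      · exfalso
        rw [h] at hw4
        norm_num at hw4
    have ha2 : |a| ≤ (k : ℤ) - 1 := by
      obtain ⟨t, ht⟩ := ha4
      rw [abs_le] at ha1 hb1 ⊢
      push_cast at ht
      omega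
    have ha2r : |(a : ℝ)| ≤ k - 1 := by exact_mod_cast ha2
    have hwr1 : (w : ℝ) = 1 := by rw [hw1]; norm_num
    have h1 := num_a7 hkr ha2r
    have h2 : S < 3 / 5 := by
      rw [hS, hbr, hwr1]
      push_cast
      have e1 : (7 : ℝ) * (k + 1) - 1 = 7 * k + 6 := by ring
      rw [e1]
      linarith
    rcases hS' with ⟨hs, hs4, h3⟩ | ⟨hs, h3⟩
    · rcases Nat.lt_or_ge m 2 with hm2 | hm2
      · have hm1 : m = 1 := by omega
        subst hm1
        have hs0 : s = 0 := by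
          obtain ⟨t, ht⟩ := hs4
          rw [abs_le] at hs
          push_cast at ht hs
          omega
        rw [hs0] at h3
        norm_num at h3
        linarith
      · have h4 := num_b7 (m := m) (s := s) (by exact_mod_cast hm2) (by exact_mod_cast hs)
        push_cast at h3
        linarith
    · have h4 := num_b7' (m := m) (s := s) hmr (by exact_mod_cast hs)
      push_cast at h3
      linarith
  · have hpr : (11 : ℝ) ≤ p := by exact_mod_cast hp
    have h1 := num_a (p := p) (by linarith) hkr hbr hwr ha1r hb1r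
    have h2 := num_c hpr
    rcases hS' with ⟨hs, -, h3⟩ | ⟨hs, h3⟩
    · have h4 := num_b (p := p) (m := m) (s := s) (by linarith) hmr (by exact_mod_cast hs)
      linarith
    · have h4 := num_b' (p := p) (m := m) (s := s) (by linarith) hmr (by exact_mod_cast hs)
      linarith

/-! ### groups -/

section

variable {G : Type u} [Group G] [Fintype G] {p : ℕ} [hp : Fact p.Prime] {P : Subgroup G}

theorem commute_all (hP : Sp p P) {x y : G} (hx : x ∈ P) (hx1 : x ≠ 1) (h : x * y = y * x) :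
    y ∈ centralizer (P : Set G) := by
  rw [Subgroup.mem_centralizer_iff]
  intro z hz
  have h1 : z ∈ zpowers x := by rw [hP.zpowers_eq hx hx1]; exact hz
  obtain ⟨n, rfl⟩ := Subgroup.mem_zpowers_iff.mp h1
  exact ((Commute.zpow_left (show Commute x y from h) n).eq)

/-- the coset `P y` is a single `P`-class. -/
theorem coset_conj' (hP : Sp p P) {y z : G}
    (hy : y ∈ normalizer (P : Set G)) (hyC : y ∉ centralizer (P : Set G)) (hz : z * y⁻¹ ∈ P) :
    ∃ x ∈ P, z = x * y * x⁻¹ := by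
  have hcomm : ∀ a ∈ P, a ≠ 1 → a * y ≠ y * a := by
    intro a ha ha1 h
    exact hyC (commute_all hP ha ha1 h)
  let f : P → P := fun x => ⟨(x : G) * (y * (x : G)⁻¹ * y⁻¹),
    P.mul_mem x.2 ((Subgroup.mem_normalizer_iff.mp hy _).mp (P.inv_mem x.2))⟩
  have hf : Function.Injective f := by
    intro a b hab
    have h1 : (a : G) * (y * (a : G)⁻¹ * y⁻¹) = (b : G) * (y * (b : G)⁻¹ * y⁻¹) :=
      congrArg Subtype.val hab
    by_contra hne
    have h2 : (b : G)⁻¹ * a ≠ 1 := by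
      intro h2
      exact hne (Subtype.ext (inv_mul_eq_one.mp h2).symm)
    refine hcomm _ (P.mul_mem (P.inv_mem b.2) a.2) h2 ?_
    have h3 : (a : G) * y * (a : G)⁻¹ = b * y * (b : G)⁻¹ := by
      have e1 : (a : G) * y * (a : G)⁻¹ = (a : G) * (y * (a : G)⁻¹ * y⁻¹) * y := by group
      have e2 : (b : G) * y * (b : G)⁻¹ = (b : G) * (y * (b : G)⁻¹ * y⁻¹) * y := by group
      rw [e1, h1, e2]
    calc (b : G)⁻¹ * a * y = (b : G)⁻¹ * (a * y * (a : G)⁻¹) * a := by group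
      _ = y * ((b : G)⁻¹ * a) := by rw [h3]; group
  have hsurj : Function.Surjective f := Finite.surjective_of_injective hf
  obtain ⟨x, hx⟩ := hsurj ⟨z * y⁻¹, hz⟩
  refine ⟨x, x.2, ?_⟩
  have h1 : (x : G) * (y * (x : G)⁻¹ * y⁻¹) = z * y⁻¹ := congrArg Subtype.val hx
  have : z = (z * y⁻¹) * y := by group
  rw [this, ← h1]; group

/-- values outside the centralizer are bounded by the dimension of the `P`-fixed space. -/
theorem norm_fix (hP : Sp p P) [Fintype P] {y : G} (hy : y ∈ normalizer (P : Set G))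
    (hyC : y ∉ centralizer (P : Set G))
    {χ : G → ℂ} (hχ : IsCharacter G χ) {c : ℕ} (hc : ∑ x : P, χ x = (p : ℂ) * c) :
    ‖χ y‖ ≤ c := by
  classical
  have hcf := CharBase.isClassFunction_of_isCharacter hχ
  set L := normalizer (P : Set G) with hL
  have := Fintype.ofFinite L
  have := Fintype.ofFinite (P.subgroupOf L)
  have hχL : IsCharacter L (fun l : L => χ l) := CharBase.isCharacter_restrict hχ L
  have e : ∀ w : L, ∑ x : P, χ (x * w) = ∑ x : P.subgroupOf L, χ (((x : L) * w : L) : G) := by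
    intro w
    refine Fintype.sum_equiv
      (Subgroup.subgroupOfEquivOfLe (Subgroup.le_normalizer (H := P))).symm.toEquiv _ _ ?_
    intro x
    rfl
  have hcard : (Nat.card (P.subgroupOf L) : ℂ) = p := by
    rw [Nat.card_congr (Subgroup.subgroupOfEquivOfLe (Subgroup.le_normalizer (H := P))).toEquiv,
      hP.card]
  have hp0 : (p : ℂ) ≠ 0 := by exact_mod_cast hp.out.ne_zero
  have h1 := Char.avgN_isCharacter (P.subgroupOf L) hχL
  have h2 : Char.avgN (P.subgroupOf L) (fun l : L => χ l) 1 = c := by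
    rw [Char.avgN_apply, ← e 1, hcard]
    simp only [OneMemClass.coe_one, mul_one]
    rw [hc, ← mul_assoc, inv_mul_cancel₀ hp0, one_mul]
  have h3 : Char.avgN (P.subgroupOf L) (fun l : L => χ l) ⟨y, hy⟩ = χ y := by
    rw [Char.avgN_apply, ← e ⟨y, hy⟩, hcard]
    have h4 : ∀ x : P, χ (x * y) = χ y := by
      intro x
      obtain ⟨a, -, ha⟩ := coset_conj' hP hy hyC (z := x * y) (by
        rw [mul_inv_cancel_right]; exact x.2)
      rw [ha]
      exact hcf y a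
    rw [Finset.sum_congr rfl (fun x _ => h4 x), Finset.sum_const, Finset.card_univ,
      ← Nat.card_eq_fintype_card, hP.card, nsmul_eq_mul, ← mul_assoc, inv_mul_cancel₀ hp0,
      one_mul]
  obtain ⟨n, hn1, hn2⟩ := CharBase.norm_le_of_isCharacter h1 ⟨y, hy⟩
  rw [h2] at hn1
  rw [h3] at hn2
  have : c = n := by exact_mod_cast hn1
  rw [this]
  exact hn2

/-- an involution normalizing and not centralizing `P`. -/
theorem exists_inv (hP : Sp p P) (hp2 : p ≠ 2) (hind : ind P = 2)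
    (hcen : ∀ v ∈ centralizer (P : Set G), ¬ p ∣ orderOf v → v ∈ center G)
    (hodd : ∀ z ∈ center G, z * z = 1 → z = 1) :
    ∃ y ∈ normalizer (P : Set G), y ∉ centralizer (P : Set G) ∧ y * y = 1 ∧ orderOf y = 2 := by
  have h1 : 2 ∣ Nat.card (normalizer (P : Set G)) := by
    have h2 := CycDat.relIndex_mul_card (C := centralizer (P : Set G))
      (T := normalizer (P : Set G)) (Blk.centralizer_le_normalizer P)
    have h3 : (centralizer (P : Set G)).relIndex (normalizer (P : Set G)) = 2 := hind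
    rw [h3] at h2
    exact ⟨_, by rw [← h2, mul_comm]⟩
  have : Fact (Nat.Prime 2) := ⟨Nat.prime_two⟩
  obtain ⟨y, hy⟩ := exists_prime_orderOf_dvd_card' 2 h1
  have hy' : orderOf (y : G) = 2 := by rw [Subgroup.orderOf_coe]; exact hy
  have hyy : (y : G) * y = 1 := by rw [← pow_two, ← hy', pow_orderOf_eq_one]
  refine ⟨y, y.2, ?_, hyy, hy'⟩
  intro hyC
  have h2 := hcen y hyC (by
    rw [hy']
    intro h
    exact hp2 ((Nat.prime_dvd_prime_iff_eq hp.out Nat.prime_two).mp h))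
  have h3 := hodd y h2 hyy
  rw [h3, orderOf_one] at hy'
  norm_num at hy'

end

end Cfsg.Agent.BT
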