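import Cfsg.Agent.BT.PM2I
import Cfsg.Agent.BR.Det

/-!
A faithful character of degree `p - 2` of a perfect group: the centre is trivial.
-/

set_option autoImplicit false
set_option linter.unusedSectionVars false

open scoped ComplexConjugate

namespace Cfsg.Agent.BT

open Cfsg Subgroup Cfsg.Agent.BR
open Cfsg.Agent.CharBase (oneIrr)

universe u

section

variable {G : Type u} [Group G] [Fintype G] {p : ℕ} [hp : Fact p.Prime] {P : Subgroup G}

theorem sum_P_const (hP : Sp p P) [Fintype P] {ψ : IrrCharacter G} {e : ℂ}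
    (h : ∀ x ∈ P, x ≠ 1 → (ψ : G → ℂ) x = e) :
    ∑ x : P, (ψ : G → ℂ) x = dg ψ + (p - 1) * e := by
  classical
  rw [sum_P_split (fun x : P => (ψ : G → ℂ) x), Subgroup.coe_one, dg_eq]
  congr 1
  rw [Finset.sum_congr rfl (fun (x : P) hx => h x x.2
    (fun h => (Finset.mem_erase.mp hx).1 (Subtype.ext h))), Finset.sum_const,
    Finset.card_erase_of_mem (Finset.mem_univ _), Finset.card_univ, ← Nat.card_eq_fintype_card,
    hP.card, nsmul_eq_mul, Nat.cast_sub hp.out.one_lt.le, Nat.cast_one]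

/-- the values at an involution. -/
theorem inv_num (hP : Sp p P) (hperf : commutator G = ⊤) [Fintype P] {y : G} (hyy : y * y = 1)
    (hyN : y ∈ normalizer (P : Set G)) (hyC : y ∉ centralizer (P : Set G)) (ψ : IrrCharacter G) :
    ∃ (c : ℕ) (s : ℤ), ∑ x : P, (ψ : G → ℂ) x = (p : ℂ) * c ∧ (ψ : G → ℂ) y = s ∧ |s| ≤ c ∧
      (4 : ℤ) ∣ dg ψ - s := by
  obtain ⟨c, hc⟩ := hP.exists_sum (CharBase.irr_isCharacter ψ)
  obtain ⟨k, hk⟩ := involution_value hperf ψ (z := y) (by rw [pow_two]; exact hyy)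
  refine ⟨c, dg ψ - 4 * k, hc, by rw [hk]; push_cast; ring, ?_, ⟨k, by ring⟩⟩
  have h1 := norm_fix hP hyN hyC (CharBase.irr_isCharacter ψ) hc
  have h2 : (ψ : G → ℂ) y = (((dg ψ : ℤ) - 4 * k : ℤ) : ℂ) := by rw [hk]; push_cast; ring
  rw [h2, Complex.norm_intCast] at h1
  exact_mod_cast h1

theorem bd_X_num (hP : Sp p P) {ψ0 : IrrCharacter G} (d : BD p P ψ0) [Fintype P]
    {ψ : IrrCharacter G} (hψ : ψ ∈ d.X) {c : ℕ} (hc : ∑ x : P, (ψ : G → ℂ) x = (p : ℂ) * c) :
    (dg ψ : ℤ) + (p - 1) * d.ε ψ = p * c := by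
  rw [sum_P_const hP (d.val ψ hψ)] at hc
  exact_mod_cast hc

theorem bd_Y_num {ψ0 : IrrCharacter G} (d : BD p P ψ0) (hind : ind P = 2) [Fintype P]
    {ψ : IrrCharacter G} (hψ : ψ ∈ d.Y) {c : ℕ} (hc : ∑ x : P, (ψ : G → ℂ) x = (p : ℂ) * c) :
    (dg ψ : ℤ) + d.δ * 2 = p * c := by
  have h := d.valY ψ hψ
  rw [finsum_eq_sum_of_fintype, hc, hind] at h
  exact_mod_cast h.symm

theorem bd_reg_one {ψ0 : IrrCharacter G} (d : BD p P ψ0) {θ : IrrCharacter G} (hθ : θ ∈ d.Y) :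
    ∑ ψ ∈ d.X, d.ε ψ * (dg ψ : ℤ) + d.δ * dg θ = 0 := by
  have h := d.reg 1 not_dvd_orderOf_one θ hθ
  simp only [dg_eq] at h
  exact_mod_cast h

/-- the data of the principal block. -/
theorem one_num (hP : Sp p P) (hp5 : 5 < p) (hind : ind P = 2) (hperf : commutator G = ⊤)
    [Fintype P] {y : G} (hyy : y * y = 1) (hyp : ¬ p ∣ orderOf y)
    (hyN : y ∈ normalizer (P : Set G)) (hyC : y ∉ centralizer (P : Set G))
    (d : BD p P (oneIrr G)) : ∃ θ ∈ d.Y, ∃ (m : ℕ) (s : ℤ), 1 ≤ m ∧ ∃ S : ℝ,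
      ((∑ ψ ∈ d.X, (d.ε ψ : ℂ) * ((ψ : G → ℂ) y * (ψ : G → ℂ) y) /
      (dg ψ : ℂ) + d.δ * ((θ : G → ℂ) y * (θ : G → ℂ) y) / (dg θ : ℂ)) = (S : ℂ)) ∧
      ((|s| ≤ m + 1 ∧ (4 : ℤ) ∣ (m * p + 1) - s ∧
        S = ((m : ℝ) * p + 1 - s) ^ 2 / ((m * p + 1) * (m * p + 2))) ∨
      (|s| ≤ m - 1 ∧ S = ((m : ℝ) * p - 1 - s) ^ 2 / ((m * p - 1) * (m * p - 2)))) := by
  classical
  obtain ⟨x, hx, hx1⟩ := exists_ne_one hP
  have hcY := d.cardY
  rw [hind] at hcY
  have h1dg : dg (oneIrr G) = 1 := dg_one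
  have h1X : oneIrr G ∈ d.X := by
    rcases d.mem0 with h | h
    · exact h
    · exfalso
      have h1 : d.Y ⊆ {oneIrr G} := by
        intro θ hθ
        rw [Finset.mem_singleton]
        have e1 := bd_reg_one d hθ
        have e2 := bd_reg_one d h
        have e3 : dg θ = 1 := by
          rw [← h1dg]
          rcases d.sgn₀ with h' | h' <;> rw [h'] at e1 e2 <;> omega
        exact eq_one_of_perfect hperf e3
      have h2 := Finset.card_le_card h1
      rw [Finset.card_singleton] at h2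
      omega
  have hε1 : d.ε (oneIrr G) = 1 := by
    have := d.val _ h1X x hx hx1
    rw [CharBase.oneIrr_apply] at this
    exact_mod_cast this.symm
  have hcX := d.cardX
  rw [hind] at hcX
  obtain ⟨χ, hχ1, hX⟩ : ∃ χ : IrrCharacter G, oneIrr G ≠ χ ∧ d.X = {oneIrr G, χ} := by
    obtain ⟨a, b, hab, hX⟩ := Finset.card_eq_two.mp hcX
    rw [hX, Finset.mem_insert, Finset.mem_singleton] at h1X
    rcases h1X with h | h
    · exact ⟨b, by rw [h]; exact hab, by rw [hX, h]⟩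
    · exact ⟨a, by rw [h]; exact hab.symm, by rw [hX, h, Finset.pair_comm]⟩
  have hχX : χ ∈ d.X := by rw [hX]; simp
  obtain ⟨θ, hθ⟩ : d.Y.Nonempty := by
    rw [← Finset.card_pos]; omega
  have hf1 : dg χ ≠ 1 := fun h => hχ1 (eq_one_of_perfect hperf h).symm
  have hfpos := dg_pos χ
  have hθpos := dg_pos θ
  obtain ⟨c, s, hc, hs, hsc, hs4⟩ := inv_num hP hperf hyy hyN hyC χ
  have hnum := bd_X_num hP d hχX hc
  have hr1 := bd_reg_one d hθ
  rw [hX, Finset.sum_pair hχ1, hε1, h1dg] at hr1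
  have hry := d.reg y hyp θ hθ
  rw [hX, Finset.sum_pair hχ1, hε1, CharBase.oneIrr_apply, hs] at hry
  have hp' : (5 : ℤ) < p := by exact_mod_cast hp5
  refine ⟨θ, hθ, ?_⟩
  rw [hX, Finset.sum_pair hχ1, hε1, h1dg, CharBase.oneIrr_apply, hs]
  rcases d.sgn χ with hε | hε
  · -- `ε = 1`
    rw [hε] at hnum hr1 hry ⊢
    have hδ : d.δ = -1 := by
      rcases d.sgn₀ with h | h
      · rw [h] at hr1; omega
      · exact h
    rw [hδ] at hr1 hry ⊢
    have hc2 : 2 ≤ c := by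
      by_contra hlt
      have : c = 0 ∨ c = 1 := by omega
      rcases this with rfl | rfl
      · push_cast at hnum; omega
      · push_cast at hnum; omega
    obtain ⟨m, rfl⟩ : ∃ m, c = m + 1 := ⟨c - 1, by omega⟩
    have hf : (dg χ : ℤ) = m * p + 1 := by push_cast at hnum; linarith
    have hh : (dg θ : ℤ) = m * p + 2 := by push_cast at hr1; linarith
    have hw : (θ : G → ℂ) y = 1 + s := by push_cast at hry; linear_combination -hry
    refine ⟨m, s, by omega, _, ?_, Or.inl ⟨by exact_mod_cast hsc, by rw [← hf]; exact hs4, rfl⟩⟩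
    have hfc : (dg χ : ℂ) = m * p + 1 := by exact_mod_cast hf
    have hhc : (dg θ : ℂ) = m * p + 2 := by exact_mod_cast hh
    have hf0 : ((m : ℂ) * p + 1) ≠ 0 := by rw [← hfc]; exact_mod_cast hfpos.ne'
    have hh0 : ((m : ℂ) * p + 2) ≠ 0 := by rw [← hhc]; exact_mod_cast hθpos.ne'
    rw [hw, hfc, hhc]
    push_cast
    field_simp
    ring
  · rw [hε] at hnum hr1 hry ⊢
    have hδ : d.δ = 1 := by
      rcases d.sgn₀ with h | h
      · exact h
      · rw [h] at hr1; omega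
    rw [hδ] at hr1 hry ⊢
    have hf : (dg χ : ℤ) = (c + 1 : ℕ) * p - 1 := by push_cast at hnum ⊢; linarith
    have hh : (dg θ : ℤ) = (c + 1 : ℕ) * p - 2 := by push_cast at hr1 hf ⊢; linarith
    have hw : (θ : G → ℂ) y = s - 1 := by push_cast at hry; linear_combination hry
    refine ⟨c + 1, s, by omega, _, ?_, Or.inr ⟨by push_cast; linarith, rfl⟩⟩
    have hfc : (dg χ : ℂ) = (c + 1 : ℕ) * p - 1 := by exact_mod_cast hf
    have hhc : (dg θ : ℂ) = (c + 1 : ℕ) * p - 2 := by exact_mod_cast hh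
    have hf0 : (((c + 1 : ℕ) : ℂ) * p - 1) ≠ 0 := by rw [← hfc]; exact_mod_cast hfpos.ne'
    have hh0 : (((c + 1 : ℕ) : ℂ) * p - 2) ≠ 0 := by rw [← hhc]; exact_mod_cast hθpos.ne'
    rw [hw, hfc, hhc]
    push_cast at hf0 hh0 ⊢
    field_simp
    ring

/-- **the centre is trivial**. -/
theorem center_trivial (hP : Sp p P) (hp5 : 5 < p) (hind : ind P = 2)
    (hcen : ∀ v ∈ centralizer (P : Set G), ¬ p ∣ orderOf v → v ∈ center G)
    (hodd : ∀ z ∈ center G, z * z = 1 → z = 1) (hperf : commutator G = ⊤) {ζ : IrrCharacter G}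
    (hdeg : dg ζ + 2 = p) (hf : ∀ g : G, (ζ : G → ℂ) g = (ζ : G → ℂ) 1 → g = 1) :
    ∀ z ∈ center G, z = 1 := by
  classical
  haveI : Fintype P := Fintype.ofFinite P
  haveI : Fintype (IrrCharacter G) := Fintype.ofFinite _
  have hpp := hp.out
  have hp2 : p ≠ 2 := by omega
  have hind1 : ind P ≠ 1 := by rw [hind]; norm_num
  obtain ⟨y, hyN, hyC, hyy, hyo⟩ := exists_inv hP hp2 hind hcen hodd
  have hyp : ¬ p ∣ orderOf y := by
    rw [hyo]
    intro h
    exact hp2 ((Nat.prime_dvd_prime_iff_eq hpp Nat.prime_two).mp h)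
  obtain ⟨x, hx, hx1⟩ := exists_ne_one hP
  obtain ⟨d0⟩ := exists_bd hP hind1 hcen (oneIrr G) (by
    rw [dg_one]; exact fun h => hpp.one_lt.ne' (Nat.dvd_one.mp h))
  have hζp : ¬ p ∣ dg ζ := by
    intro h
    have := Nat.le_of_dvd (dg_pos ζ) h
    omega
  obtain ⟨d⟩ := exists_bd hP hind1 hcen ζ hζp
  have hp' : (5 : ℤ) < p := by exact_mod_cast hp5
  have hdeg' : (dg ζ : ℤ) = p - 2 := by
    have : (dg ζ : ℤ) + 2 = p := by exact_mod_cast hdeg
    linarith
  obtain ⟨cζ, w, hcζ, hw, hwc, hw4⟩ := inv_num hP hperf hyy hyN hyC ζ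
  -- `ζ` is exceptional
  have hζY : ζ ∈ d.Y := by
    rcases d.mem0 with h | h
    · exfalso
      have h1 := bd_X_num hP d h hcζ
      rw [hdeg'] at h1
      rcases d.sgn ζ with h2 | h2
      · rw [h2] at h1
        have h3 : (p : ℤ) ∣ 3 := ⟨2 - cζ, by linarith⟩
        have := Int.le_of_dvd (by norm_num) h3
        omega
      · rw [h2] at h1
        have h3 : (p : ℤ) ∣ 1 := ⟨-cζ, by linarith⟩
        have := Int.le_of_dvd (by norm_num) h3
        omega
    · exact h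
  have hY := bd_Y_num d hind hζY hcζ
  rw [hdeg'] at hY
  have hδ : d.δ = 1 := by
    rcases d.sgn₀ with h | h
    · exact h
    · exfalso
      rw [h] at hY
      have h3 : (p : ℤ) ∣ 4 := ⟨1 - cζ, by linarith⟩
      have := Int.le_of_dvd (by norm_num) h3
      omega
  rw [hδ] at hY
  have hcζ1 : cζ = 1 := by
    have h1 : (p : ℤ) * (cζ - 1) = 0 := by linarith
    rcases mul_eq_zero.mp h1 with h | h
    · omega
    · omega
  subst hcζ1
  have hw1 : w = 1 ∨ w = -1 := by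
    have h1 := abs_le.mp hwc
    obtain ⟨t, ht⟩ := hw4
    rw [hdeg'] at ht
    have hpo : (p : ℤ) % 2 = 1 := by
      have := hpp.eq_two_or_odd
      omega
    push_cast at h1
    omega
  have hw2 : (w : ℝ) ^ 2 = 1 := by rcases hw1 with h | h <;> rw [h] <;> norm_num
  -- the nonexceptional characters
  have hcX := d.cardX
  rw [hind] at hcX
  have hr1 := bd_reg_one d hζY
  have hry := d.reg y hyp ζ hζY
  obtain ⟨ξ1, ξ2, h12, hX, hε1, hε2⟩ : ∃ ξ1 ξ2 : IrrCharacter G, ξ1 ≠ ξ2 ∧ d.X = {ξ1, ξ2} ∧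
      d.ε ξ1 = 1 ∧ d.ε ξ2 = -1 := by
    obtain ⟨a, b, hab, hX⟩ := Finset.card_eq_two.mp hcX
    have haX : a ∈ d.X := by rw [hX]; simp
    have hbX : b ∈ d.X := by rw [hX]; simp
    rw [hX, Finset.sum_pair hab, hδ, hdeg'] at hr1
    have ha0 : (0 : ℤ) < dg a := by exact_mod_cast dg_pos a
    have hb0 : (0 : ℤ) < dg b := by exact_mod_cast dg_pos b
    obtain ⟨ca, -, hca, -, -, -⟩ := inv_num hP hperf hyy hyN hyC a
    obtain ⟨cb, -, hcb, -, -, -⟩ := inv_num hP hperf hyy hyN hyC b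
    have hna := bd_X_num hP d haX hca
    have hnb := bd_X_num hP d hbX hcb
    rcases d.sgn a with h1 | h1 <;> rcases d.sgn b with h2 | h2
    · rw [h1, h2] at hr1; omega
    · exact ⟨a, b, hab, hX, h1, h2⟩
    · exact ⟨b, a, hab.symm, by rw [hX, Finset.pair_comm], h2, h1⟩
    · exfalso
      rw [h1] at hna
      rw [h2] at hnb
      rw [h1, h2] at hr1
      have h3 : (0 : ℤ) ≤ p * ca := by positivity
      have h4 : (0 : ℤ) ≤ p * cb := by positivity
      omega
  have h1X : ξ1 ∈ d.X := by rw [hX]; simp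
  have h2X : ξ2 ∈ d.X := by rw [hX]; simp
  obtain ⟨c1, a, hc1, ha, hac, ha4⟩ := inv_num hP hperf hyy hyN hyC ξ1
  obtain ⟨k, b, hk, hb, hbk, -⟩ := inv_num hP hperf hyy hyN hyC ξ2
  have hn1 := bd_X_num hP d h1X hc1
  have hn2 := bd_X_num hP d h2X hk
  rw [hX, Finset.sum_pair h12, hε1, hε2, hδ, hdeg'] at hr1
  rw [hX, Finset.sum_pair h12, hε1, hε2, hδ, ha, hb, hw] at hry
  rw [hε1] at hn1
  rw [hε2] at hn2
  have hbaw : b = a + w := by
    have : (b : ℂ) = a + w := by push_cast at hry; linear_combination -hry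
    exact_mod_cast this
  have hc1k : (c1 : ℤ) = k + 1 := by
    have h1 : (p : ℤ) * (c1 - (k + 1)) = 0 := by linarith
    rcases mul_eq_zero.mp h1 with h | h
    · omega
    · linarith
  have hf1 : (dg ξ1 : ℤ) = p * k + 1 := by rw [hc1k] at hn1; linarith
  have hf2 : (dg ξ2 : ℤ) = p * (k + 1) - 1 := by linarith
  rcases Nat.eq_zero_or_pos k with hk0 | hkpos
  · -- `ξ1` is trivial
    rw [hk0] at hf1
    have h1 : dg ξ1 = 1 := by push_cast at hf1; omega
    have h2 := eq_one_of_perfect hperf h1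
    intro z hz
    apply hf
    have h3 := d.ov ξ1 (Or.inl h1X) z hz
    rw [h2, CharBase.oneIrr_apply, CharBase.oneIrr_apply, one_mul, mul_one] at h3
    exact h3.symm
  · exfalso
    obtain ⟨θ, hθ, m, s, hm, S, hS, hcases⟩ := one_num hP hp5 hind hperf hyy hyp hyN hyC d0
    have e0 := S_eq hP hind1 hodd hyy hyp hx hx1 d0 hθ
    have e1 := S_eq hP hind1 hodd hyy hyp hx hx1 d hζY
    have hZ : (Nat.card (center G) : ℂ) ≠ 0 := by exact_mod_cast Nat.card_pos.ne'
    have e2 := mul_left_cancel₀ hZ (e0.symm.trans e1)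
    rw [hS, hX, Finset.sum_pair h12, hε1, hε2, hδ, ha, hb, hw] at e2
    have hS2 : S = (a : ℝ) ^ 2 / (p * k + 1) - (b : ℝ) ^ 2 / (p * (k + 1) - 1) + 1 / (p - 2) := by
      apply Complex.ofReal_injective
      have g1 : (dg ξ1 : ℂ) = p * k + 1 := by exact_mod_cast hf1
      have g2 : (dg ξ2 : ℂ) = p * (k + 1) - 1 := by exact_mod_cast hf2
      have g3 : (dg ζ : ℂ) = p - 2 := by exact_mod_cast hdeg'
      have g4 : (w : ℂ) * w = 1 := by
        have : (w : ℂ) ^ 2 = 1 := by exact_mod_cast hw2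
        rw [← pow_two]; exact this
      rw [e2, g1, g2, g3, g4]
      push_cast
      ring
    refine num_final (p := p) (k := k) (m := m) ?_ hkpos hm hbaw hw1 ?_ hbk ?_ ?_ hS2 hcases
    · rcases Nat.lt_or_ge p 11 with h | h
      · left
        interval_cases p
        · exact absurd hpp (by norm_num)
        · rfl
        · exact absurd hpp (by norm_num)
        · exact absurd hpp (by norm_num)
        · exact absurd hpp (by norm_num)
      · exact Or.inr h
    · have : ((c1 : ℕ) : ℤ) = k + 1 := hc1k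
      rw [← this]; exact hac
    · rw [← hdeg']; exact hw4
    · rw [← hf1]; exact ha4

end

end Cfsg.Agent.BT
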