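import Cfsg.Agent.BT.PM2J
import Cfsg.Agent.Char.Berger2

/-!
A faithful character of degree `p - 2`: reduction to a perfect group.
-/

set_option autoImplicit false
set_option linter.unusedSectionVars false

open scoped ComplexConjugate commutatorElement

namespace Cfsg.Agent.BT

open Cfsg Subgroup Cfsg.Agent.BR
open Cfsg.Agent.CharBase (oneIrr)

universe u

section

variable {G : Type u} [Group G] [Finite G] {p : ℕ} [hp : Fact p.Prime] {P : Subgroup G}

/-- `p`-solvability from a chain. -/
theorem psolv_chain {O K : Subgroup G} [hOn : O.Normal] [hKn : K.Normal] (hOK : O ≤ K)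
    (hO : (Nat.card O).Coprime p) (hK : ∃ m : ℕ, O.relIndex K = p ^ m) (hi : K.index.Coprime p) :
    IsPSolvable p G := by
  refine ⟨3, ![⊥, O, K, ⊤], rfl, rfl, ?_, ?_, ?_⟩
  · intro i j hij
    fin_cases i <;> fin_cases j <;> simp at hij ⊢ <;> first | exact hOK | omega
  · intro i
    fin_cases i
    · exact (inferInstance : (⊥ : Subgroup G).Normal)
    · exact hOn
    · exact hKn
    · exact (inferInstance : (⊤ : Subgroup G).Normal)
  · intro i
    fin_cases i
    · right
      show ((⊥ : Subgroup G).relIndex O).Coprime p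
      rw [Subgroup.relIndex_bot_left]; exact hO
    · left; exact hK
    · right
      show (K.relIndex (⊤ : Subgroup G)).Coprime p
      rw [Subgroup.relIndex_top_right]; exact hi

theorem le_of_dvd_card (hP : Sp p P) (K : Subgroup G) [hKn : K.Normal] (h : p ∣ Nat.card K) :
    P ≤ K := by
  haveI := Fintype.ofFinite G
  obtain ⟨g, hg⟩ := exists_prime_orderOf_dvd_card' p h
  have hg' : orderOf (g : G) = p := by rw [Subgroup.orderOf_coe]; exact hg
  obtain ⟨x, hx⟩ := hP.exists_conj hg'
  have hxK : x⁻¹ * g * x ∈ K := by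
    have := hKn.conj_mem g g.2 x⁻¹
    rwa [inv_inv] at this
  have hne : x⁻¹ * (g : G) * x ≠ 1 := by
    intro h1
    have h2 : (g : G) = 1 := by
      calc (g : G) = x * (x⁻¹ * g * x) * x⁻¹ := by group
        _ = 1 := by rw [h1]; group
    rw [h2, orderOf_one] at hg'
    exact hp.out.one_lt.ne hg'
  rw [← hP.zpowers_eq hx hne, Subgroup.zpowers_le]
  exact hxK

theorem sp_subgroupOf (hP : Sp p P) {K : Subgroup G} (hPK : P ≤ K) : Sp p (P.subgroupOf K) := by
  refine ⟨?_, ?_⟩
  · rw [Nat.card_congr (Subgroup.subgroupOfEquivOfLe hPK).toEquiv, hP.card]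
  · intro h
    have h1 : (P.subgroupOf K).index ∣ P.index := by
      have h2 := Subgroup.relIndex_mul_index hPK
      exact ⟨K.index, h2.symm⟩
    exact hP.idx (h.trans h1)

theorem coprime_of_le (hP : Sp p P) {K : Subgroup G} (hPK : P ≤ K) : K.index.Coprime p := by
  rw [Nat.coprime_comm]
  refine (Nat.Prime.coprime_iff_not_dvd hp.out).2 fun h => hP.idx ?_
  exact h.trans ⟨P.relIndex K, by rw [mul_comm]; exact (Subgroup.relIndex_mul_index hPK).symm⟩

/-- if `N_K(P) ≤ C(P)` for a normal subgroup `K ≥ P` then `G` is `p`-solvable. -/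
theorem psolv_of_le (hP : Sp p P) (K : Subgroup G) [hKn : K.Normal] (hPK : P ≤ K)
    (h : ∀ n ∈ K, n ∈ normalizer (P : Set G) → n ∈ centralizer (P : Set G)) :
    IsPSolvable p G := by
  haveI := Fintype.ofFinite G
  haveI : Fintype K := Fintype.ofFinite K
  have hPK' := sp_subgroupOf hP hPK
  obtain ⟨Q, hQ⟩ := hPK'.exists_sylow
  have h1 : normalizer ((Q : Subgroup K) : Set K) ≤ centralizer ((Q : Subgroup K) : Set K) := by
    rw [hQ]
    intro n hn
    have h2 : (n : G) ∈ normalizer (P : Set G) := by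
      rw [Subgroup.mem_normalizer_iff] at hn ⊢
      intro g
      constructor
      · intro hg
        have := (hn ⟨g, hPK hg⟩).1 (Subgroup.mem_subgroupOf.2 hg)
        exact Subgroup.mem_subgroupOf.1 this
      · intro hg
        have hgK : g ∈ K := by
          have h3 := hKn.conj_mem _ (hPK hg) (n : G)⁻¹
          have e : (n : G)⁻¹ * (n * g * (n : G)⁻¹) * (n : G)⁻¹⁻¹ = g := by group
          rwa [e] at h3
        have := (hn ⟨g, hgK⟩).2 (Subgroup.mem_subgroupOf.2 hg)
        exact Subgroup.mem_subgroupOf.1 this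
    have h3 := h n n.2 h2
    rw [Subgroup.mem_centralizer_iff] at h3 ⊢
    intro x hx
    exact Subtype.ext (h3 x (Subgroup.mem_subgroupOf.1 hx))
  have hcompl := MonoidHom.ker_transferSylow_isComplement' Q h1
  set O := (MonoidHom.transferSylow Q h1).ker with hO
  have hOn : O.Normal := inferInstance
  have hOi : O.index = p := by
    rw [hcompl.symm.index_eq_card, hQ, hPK'.card]
  have hOc : (Nat.card O).Coprime p := by
    rw [Nat.coprime_comm]
    refine (Nat.Prime.coprime_iff_not_dvd hp.out).2 fun hd => ?_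
    have h4 := O.card_mul_index
    rw [hOi] at h4
    have h5 := (P.subgroupOf K).card_mul_index
    rw [hPK'.card, ← h4, mul_comm] at h5
    have h6 := Nat.eq_of_mul_eq_mul_right hp.out.pos h5
    exact hPK'.idx (h6 ▸ hd)
  have hmem : ∀ k : K, ¬ p ∣ orderOf k → k ∈ O := by
    intro k hk
    have h4 : k ^ p ∈ O := by rw [← hOi]; exact Subgroup.pow_index_mem O k
    have h5 : (orderOf k).Coprime p := ((Nat.Prime.coprime_iff_not_dvd hp.out).2 hk).symm
    obtain ⟨m, hm⟩ := exists_pow_eq_self_of_coprime (x := k) (n := p) h5.symm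
    rw [← hm]
    exact O.pow_mem h4 m
  have hOr : ∀ k ∈ O, ¬ p ∣ orderOf k := by
    intro k hk hd
    have h4 : orderOf k ∣ Nat.card O := Subgroup.orderOf_dvd_natCard _ hk
    exact (Nat.Prime.coprime_iff_not_dvd hp.out).1 hOc.symm (hd.trans h4)
  haveI : (O.map K.subtype).Normal := by
    refine ⟨fun n hn g => ?_⟩
    obtain ⟨k, hk, rfl⟩ := Subgroup.mem_map.1 hn
    refine Subgroup.mem_map.2 ⟨⟨g * k * g⁻¹, hKn.conj_mem k k.2 g⟩, hmem _ ?_, rfl⟩
    have h4 : orderOf (⟨g * k * g⁻¹, hKn.conj_mem k k.2 g⟩ : K) = orderOf k := by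
      rw [Subgroup.orderOf_mk, ← Subgroup.orderOf_coe k]
      have : g * (k : G) * g⁻¹ = MulAut.conj g (k : G) := by simp
      rw [this, MulEquiv.orderOf_eq]
    rw [h4]
    exact hOr k hk
  have hle : O.map K.subtype ≤ K := Subgroup.map_subtype_le O
  refine psolv_chain hle ?_ ⟨1, ?_⟩ (coprime_of_le hP hPK)
  · rw [Subgroup.card_map_of_injective K.subtype_injective]; exact hOc
  · rw [pow_one, ← hOi, Subgroup.relIndex, Subgroup.subgroupOf,
      Subgroup.comap_map_eq_self_of_injective K.subtype_injective]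

/-- **`G = G' Z(G)`**. -/
theorem sup_center (hP : Sp p P) (hind : ind P = 2)
    (hcen : ∀ v ∈ centralizer (P : Set G), ¬ p ∣ orderOf v → v ∈ center G)
    (hns : ¬ IsPSolvable p G) (K : Subgroup G) [hKn : K.Normal] (hPK : P ≤ K) :
    ∀ g : G, ∃ k ∈ K, ∃ z ∈ center G, g = k * z := by
  haveI := Fintype.ofFinite G
  obtain ⟨n, hnK, hnN, hnC⟩ : ∃ n ∈ K, n ∈ normalizer (P : Set G) ∧
      n ∉ centralizer (P : Set G) := by
    by_contra hcon
    push Not at hcon
    exact hns (psolv_of_le hP K hPK hcon)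
  have hCZ : centralizer (P : Set G) ≤ K ⊔ center G := by
    intro c hc
    obtain ⟨x, hx, v, hv, -, rfl⟩ := C_decomp hP rfl hcen hc
    exact Subgroup.mul_mem_sup (hPK hx) hv
  have hNZ : normalizer (P : Set G) ≤ K ⊔ center G := by
    intro u hu
    by_cases huC : u ∈ centralizer (P : Set G)
    · exact hCZ huC
    · have h1 : ((centralizer (P : Set G)).subgroupOf (normalizer (P : Set G))).index = 2 := hind
      have h2 := Subgroup.mul_mem_iff_of_index_two h1 (a := ⟨u, hu⟩) (b := ⟨n, hnN⟩)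
      rw [Subgroup.mem_subgroupOf, Subgroup.mem_subgroupOf, Subgroup.mem_subgroupOf] at h2
      have h3 : u * n ∈ centralizer (P : Set G) :=
        h2.mpr ⟨fun h => absurd h huC, fun h => absurd h hnC⟩
      have h4 : u = (u * n) * n⁻¹ := by group
      rw [h4]
      exact (K ⊔ center G).mul_mem (hCZ h3) (Subgroup.mem_sup_left (K.inv_mem hnK))
  obtain ⟨Q, hQ⟩ := hP.exists_sylow
  have hfr := Sylow.normalizer_sup_eq_top' Q (N := K) (by rw [hQ]; exact hPK)
  have h5 : normalizer (Q : Set G) = normalizer (P : Set G) := by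
    have : (Q : Set G) = (P : Set G) := by rw [← hQ]; rfl
    rw [this]
  rw [h5] at hfr
  intro g
  have hg : g ∈ K ⊔ center G := by
    have h6 : g ∈ normalizer (P : Set G) ⊔ K := by rw [hfr]; trivial
    exact (sup_le hNZ le_sup_left) h6
  rw [Subgroup.mem_sup_of_normal_left] at hg
  obtain ⟨k, hk, z, hz, rfl⟩ := hg
  exact ⟨k, hk, z, hz, rfl⟩

/-- `G'` is perfect when `G = G' Z(G)`. -/
theorem comm_perfect
    (h : ∀ g : G, ∃ k ∈ commutator G, ∃ z ∈ center G, g = k * z) :
    commutator (commutator G) = ⊤ := by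
  have key : ∀ a b : G, ⁅a, b⁆ ∈ (commutator (commutator G)).map (commutator G).subtype := by
    intro a b
    obtain ⟨k, hk, z, hz, rfl⟩ := h a
    obtain ⟨k', hk', z', hz', rfl⟩ := h b
    have e : ⁅k * z, k' * z'⁆ = ⁅k, k'⁆ := by
      rw [commutatorElement_def, commutatorElement_def]
      have c1 := Subgroup.mem_center_iff.1 hz
      have c2 := Subgroup.mem_center_iff.1 hz'
      calc k * z * (k' * z') * (k * z)⁻¹ * (k' * z')⁻¹ =
          k * (z * k') * z' * z⁻¹ * k⁻¹ * z'⁻¹ * k'⁻¹ := by group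
        _ = k * k' * (z * z') * z⁻¹ * k⁻¹ * z'⁻¹ * k'⁻¹ := by rw [← c1 k']; group
        _ = k * k' * (z' * z) * z⁻¹ * k⁻¹ * z'⁻¹ * k'⁻¹ := by rw [c2 z]
        _ = k * k' * (z' * k⁻¹) * z'⁻¹ * k'⁻¹ := by group
        _ = k * k' * k⁻¹ * k'⁻¹ := by rw [← c2 k⁻¹]; group
    rw [e]
    refine Subgroup.mem_map.2 ⟨⁅(⟨k, hk⟩ : commutator G), (⟨k', hk'⟩ : commutator G)⁆, ?_, rfl⟩
    exact Subgroup.commutator_mem_commutator (Subgroup.mem_top _) (Subgroup.mem_top _)
  have h1 : commutator G ≤ (commutator (commutator G)).map (commutator G).subtype := by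
    show ⁅(⊤ : Subgroup G), ⊤⁆ ≤ _
    exact Subgroup.commutator_le.2 fun a _ b _ => key a b
  rw [eq_top_iff]
  intro g _
  obtain ⟨g', hg', he⟩ := Subgroup.mem_map.1 (h1 g.2)
  have : g' = g := Subtype.ext he
  rwa [← this]

/-- restriction to `K` is irreducible when `G = K Z(G)`. -/
theorem restr_irr {K : Subgroup G}
    (h : ∀ g : G, ∃ k ∈ K, ∃ z ∈ center G, g = k * z) (ζ : IrrCharacter G) :
    IsIrrCharacter K (fun k : K => (ζ : G → ℂ) k) := by
  haveI := Fintype.ofFinite G
  haveI := Fintype.ofFinite K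
  haveI := Fintype.ofFinite (center G)
  let f : K × center G →* G :=
    { toFun := fun q => (q.1 : G) * q.2
      map_one' := by simp
      map_mul' := by
        rintro ⟨a, z⟩ ⟨b, w⟩
        have c1 := Subgroup.mem_center_iff.1 z.2
        simp only [Prod.mk_mul_mk, Subgroup.coe_mul]
        calc (a : G) * b * (z * w) = (a : G) * ((b : G) * z) * w := by group
          _ = a * z * (b * w) := by rw [c1 b]; group }
  have hf : Function.Surjective f := by
    intro g
    obtain ⟨k, hk, z, hz, rfl⟩ := h g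
    exact ⟨(⟨k, hk⟩, ⟨z, hz⟩), rfl⟩
  have h1 := CharBase.isIrrCharacter_comp_surjective ζ.2 f hf
  have h2 : ((ζ : G → ℂ) ∘ f) = (fun q : K × center G => (ζ : G → ℂ) q.1) *
      (fun q : K × center G => omH ζ q.2) := by
    funext q
    exact val_mul_center ζ q.1 q.2
  rw [h2] at h1
  have h3 := Char.BG.isIrr_of_mul
    (CharBase.isCharacter_comp (CharBase.isCharacter_restrict (CharBase.irr_isCharacter ζ) K)
      (MonoidHom.fst K (center G)))
    (Char.isCharacter_of_hom ((omH ζ).comp (MonoidHom.snd K (center G)))) h1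
  exact Char.BG.isIrr_of_comp (MonoidHom.fst K (center G))
    (CharBase.isCharacter_restrict (CharBase.irr_isCharacter ζ) K) h3

/-- the direct product. -/
theorem exists_prod {K : Subgroup G}
    (h : ∀ g : G, ∃ k ∈ K, ∃ z ∈ center G, g = k * z) (hK : ∀ z ∈ center K, z = 1) :
    Nonempty (G ≃* K × center G) := by
  let f : K × center G →* G :=
    { toFun := fun q => (q.1 : G) * q.2
      map_one' := by simp
      map_mul' := by
        rintro ⟨a, z⟩ ⟨b, w⟩
        have c1 := Subgroup.mem_center_iff.1 z.2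
        simp only [Prod.mk_mul_mk, Subgroup.coe_mul]
        calc (a : G) * b * (z * w) = (a : G) * ((b : G) * z) * w := by group
          _ = a * z * (b * w) := by rw [c1 b]; group }
  have hf : Function.Surjective f := by
    intro g
    obtain ⟨k, hk, z, hz, rfl⟩ := h g
    exact ⟨(⟨k, hk⟩, ⟨z, hz⟩), rfl⟩
  have hi : Function.Injective f := by
    rw [injective_iff_map_eq_one]
    rintro ⟨k, z⟩ hkz
    have h1 : (k : G) * z = 1 := hkz
    have h2 : (k : G) = (z : G)⁻¹ := eq_inv_of_mul_eq_one_left h1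
    have h3 : k ∈ center K := by
      rw [Subgroup.mem_center_iff]
      intro g
      apply Subtype.ext
      rw [Subgroup.coe_mul, Subgroup.coe_mul, h2]
      exact (Subgroup.mem_center_iff.1 ((center G).inv_mem z.2)) g
    have h4 := hK k h3
    subst h4
    rw [Subgroup.coe_one, one_mul] at h1
    exact Prod.ext rfl (Subtype.ext h1)
  exact ⟨(MulEquiv.ofBijective f ⟨hi, hf⟩).symm⟩

end

end Cfsg.Agent.BT
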