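import Cfsg.Agent.BT.PM2K
import Cfsg.Agent.BT.E2b
import Cfsg.Agent.BT.Kernel
import Cfsg.Agent.ZJ.SolvFact

/-!
A faithful character of degree `p - 2`: the main theorem.
-/

set_option autoImplicit false
set_option linter.unusedSectionVars false

open scoped ComplexConjugate commutatorElement

namespace Cfsg.Agent.BT

open Cfsg Subgroup Cfsg.Agent.BR
open Cfsg.Agent.CharBase (oneIrr)

universe u

section

variable {G : Type u} [Group G] [Fintype G] {p : ℕ} [hp : Fact p.Prime] {P : Subgroup G}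

/-- the case of a perfect group. -/
theorem pm2_perfect (hP : Sp p P) (hp5 : 5 < p) (hnn : ¬ P.Normal) (hperf : commutator G = ⊤)
    {ζ : IrrCharacter G}
    (hdeg : dg ζ + 2 = p) (hf : ∀ g : G, (ζ : G → ℂ) g = (ζ : G → ℂ) 1 → g = 1) :
    (∀ z ∈ center G, z = 1) ∧ ∃ (m : ℕ) (F : Type) (_ : Field F) (_ : Fintype F),
      p = 2 ^ m + 1 ∧ Fintype.card F = 2 ^ m ∧
      Nonempty (G ≃* Matrix.SpecialLinearGroup (Fin 2) F) := by
  classical
  haveI : Fintype P := Fintype.ofFinite P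
  obtain ⟨hind, hcen⟩ := pm2_struct hP hp5 hnn hdeg hf
  have hodd : ∀ z ∈ center G, z * z = 1 → z = 1 := by
    intro z hz hzz
    obtain ⟨k, hk⟩ := involution_value hperf ζ (z := z) (by rw [pow_two]; exact hzz)
    have h1 := CycG.mul_central ζ hz z
    rw [hzz, dg_eq] at h1
    have h2 : ((dg ζ : ℤ) - 4 * k) * ((dg ζ : ℤ) - 4 * k) = dg ζ * dg ζ := by
      have : (((dg ζ : ℤ) - 4 * k : ℤ) : ℂ) * (((dg ζ : ℤ) - 4 * k : ℤ) : ℂ) =
          (dg ζ : ℂ) * (dg ζ : ℂ) := by
        rw [h1, hk]; push_cast; ring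
      exact_mod_cast this
    have hp2 := hp.out.eq_two_or_odd
    rcases mul_self_eq_mul_self_iff.mp h2 with h3 | h3
    · apply hf
      have hk0 : k = 0 := by omega
      rw [hk, hk0, dg_eq]; simp
    · omega
  have hZ := center_trivial hP hp5 hind hcen hodd hperf hdeg hf
  refine ⟨hZ, ?_⟩
  have hC : centralizer (P : Set G) = P :=
    cent_eq_of hP fun v hv hvp => hZ v (hcen v hv hvp)
  obtain ⟨B⟩ := CycG.nonempty_data hP
  let st : Ex p P := ⟨hP, hC, B, by omega⟩
  have hp' : (5 : ℤ) < p := by exact_mod_cast hp5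
  have hdeg' : (dg ζ : ℤ) = p - 2 := by
    have : (dg ζ : ℤ) + 2 = p := by exact_mod_cast hdeg
    linarith
  have hζY : ζ ∈ B.Y := by
    rcases st.mem_or ζ with h | h | h
    · exfalso
      have h1 := B.congr_X hP h
      rw [hdeg'] at h1
      rcases B.sgn ζ h with h2 | h2
      · rw [h2] at h1
        have h3 : (p : ℤ) ∣ 3 := by
          obtain ⟨t, ht⟩ := h1
          exact ⟨1 - t, by linarith⟩
        have := Int.le_of_dvd (by norm_num) h3
        omega
      · rw [h2] at h1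
        have h3 : (p : ℤ) ∣ 1 := by
          obtain ⟨t, ht⟩ := h1
          exact ⟨1 - t, by linarith⟩
        have := Int.le_of_dvd (by norm_num) h3
        omega
    · exact h
    · exfalso
      have := Nat.le_of_dvd (dg_pos ζ) h
      omega
  have hδ : B.δ₀ = 1 := by
    rcases B.sgn₀ with h | h
    · exact h
    · exfalso
      have h1 := B.congr_Y hP hζY
      rw [hdeg', h, hind] at h1
      have h3 : (p : ℤ) ∣ 4 := by
        obtain ⟨t, ht⟩ := h1
        push_cast at ht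
        exact ⟨1 - t, by linarith⟩
      have := Int.le_of_dvd (by norm_num) h3
      omega
  have hdY : ∀ ψ ∈ B.Y, dg ψ + 2 = p := by
    intro ψ hψ
    rw [B.dg_Y hψ hζY]; exact hdeg
  have hfaith : ∀ ψ ∈ B.Y, ∀ g : G, (ψ : G → ℂ) g = (ψ : G → ℂ) 1 → g = 1 := by
    intro ψ hψ g hg
    by_cases hpg : p ∣ orderOf g
    · exfalso
      obtain ⟨K, hKn, hK⟩ := exists_kernel ψ
      obtain ⟨k, hk⟩ := hpg
      have hk0 : k ≠ 0 := by
        rintro rfl
        rw [mul_zero] at hk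
        exact (orderOf_pos g).ne' hk
      have h1 : orderOf (g ^ k) = p := by
        rw [orderOf_pow' g hk0, hk, Nat.gcd_eq_right (dvd_mul_left k p),
          Nat.mul_div_cancel _ (Nat.pos_of_ne_zero hk0)]
      have h2 : g ^ k ∈ K := K.pow_mem ((hK g).2 hg) k
      have h3 : p ∣ Nat.card K := h1 ▸ Subgroup.orderOf_dvd_natCard _ h2
      have h4 := le_of_dvd_card hP K h3
      have h5 := B.sum_Y hψ
      rw [hδ, hind, Finset.sum_congr rfl (fun (x : P) _ => (hK x).1 (h4 x.2)), Finset.sum_const,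
        Finset.card_univ, ← Nat.card_eq_fintype_card, hP.card, nsmul_eq_mul, dg_eq] at h5
      have h6 : p * dg ψ = dg ψ + 2 := by
        have : (p : ℂ) * dg ψ = dg ψ + 2 := by rw [h5]; push_cast; ring
        exact_mod_cast this
      have h7 := hdY ψ hψ
      rw [h7] at h6
      have h8 : dg ψ = 1 := by
        apply Nat.eq_of_mul_eq_mul_left hp.out.pos
        rw [h6, mul_one]
      omega
    · apply hf
      rw [B.Y_eq hζY hψ hpg, B.Y_eq hζY hψ (g := 1) not_dvd_orderOf_one]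
      exact hg
  let d : E2 p P := ⟨st, hind, hδ, hdY, hfaith, by omega⟩
  obtain ⟨m, F, hF, hF', -, h2, h3, h4⟩ := d.ident
  exact ⟨m, F, hF, hF', h2, h3, h4⟩

end

section

variable {G : Type u} [Group G] [Finite G] {p : ℕ} [hp : Fact p.Prime] {P : Subgroup G}

/-- **the main theorem**. -/
theorem pm2_main (hP : Sp p P) (hp5 : 5 < p) (hnn : ¬ P.Normal) {ζ : IrrCharacter G}
    (hdeg : dg ζ + 2 = p) (hf : ∀ g : G, (ζ : G → ℂ) g = (ζ : G → ℂ) 1 → g = 1) :
    ∃ (m : ℕ) (F : Type) (_ : Field F) (_ : Fintype F), p = 2 ^ m + 1 ∧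
      Fintype.card F = 2 ^ m ∧
      Nonempty (G ≃* Matrix.SpecialLinearGroup (Fin 2) F × center G) := by
  classical
  haveI := Fintype.ofFinite G
  obtain ⟨hind, hcen⟩ := pm2_struct hP hp5 hnn hdeg hf
  have hns := not_psolv hP hnn hdeg hf
  set K := commutator G with hK
  have hpK : p ∣ Nat.card K := by
    by_contra h
    apply hns
    apply H33.isPSolvable_of_coprime_normal K
      ((Nat.Prime.coprime_iff_not_dvd hp.out).2 h).symm
    apply ZJ.isPSolvable_of_isSolvable p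
    apply Group.isSolvable_of_comm
    intro a b
    obtain ⟨a, rfl⟩ := QuotientGroup.mk_surjective a
    obtain ⟨b, rfl⟩ := QuotientGroup.mk_surjective b
    rw [← QuotientGroup.mk_mul, ← QuotientGroup.mk_mul, eq_comm, QuotientGroup.eq]
    have h1 : ⁅b⁻¹, a⁻¹⁆ ∈ K := Subgroup.commutator_mem_commutator (Subgroup.mem_top _)
      (Subgroup.mem_top _)
    have h2 : ⁅a⁻¹, b⁻¹⁆ = (b * a)⁻¹ * (a * b) := by
      rw [commutatorElement_def]; group
    rw [← h2]
    exact Subgroup.commutator_mem_commutator (Subgroup.mem_top _) (Subgroup.mem_top _)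
  have hPK := le_of_dvd_card hP K hpK
  have hsup := sup_center hP hind hcen hns K hPK
  have hperf := comm_perfect hsup
  haveI : Fintype K := Fintype.ofFinite K
  let ζK : IrrCharacter K := ⟨_, restr_irr hsup ζ⟩
  have hζK : ∀ k : K, (ζK : K → ℂ) k = (ζ : G → ℂ) k := fun k => rfl
  have hdegK : dg ζK = dg ζ := by
    have h1 : (ζK : K → ℂ) 1 = (ζ : G → ℂ) 1 := rfl
    rw [dg_eq, dg_eq] at h1
    exact_mod_cast h1
  have hnK : ¬ (P.subgroupOf K).Normal := by
    intro hn
    apply hnn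
    refine ⟨fun x hx g => ?_⟩
    obtain ⟨k, hk, z, hz, rfl⟩ := hsup g
    have h1 := hn.conj_mem ⟨x, hPK hx⟩ (Subgroup.mem_subgroupOf.2 hx) ⟨k, hk⟩
    have h2 : k * x * k⁻¹ ∈ P := Subgroup.mem_subgroupOf.1 h1
    have h3 : k * z * x * (k * z)⁻¹ = k * x * k⁻¹ := by
      have c1 := (Subgroup.mem_center_iff.1 hz) x
      calc k * z * x * (k * z)⁻¹ = k * (z * x) * z⁻¹ * k⁻¹ := by group
        _ = k * x * k⁻¹ := by rw [← c1]; group
    rw [h3]; exact h2
  obtain ⟨hZ, m, F, hF, hF', h1, h2, ⟨e⟩⟩ := pm2_perfect (sp_subgroupOf hP hPK) hp5 hnK hperf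
    (ζ := ζK) (by rw [hdegK]; exact hdeg) (by
      intro k hk
      exact Subtype.ext (hf k hk))
  obtain ⟨f⟩ := exists_prod hsup hZ
  exact ⟨m, F, hF, hF', h1, h2, ⟨f.trans (e.prodCongr (MulEquiv.refl _))⟩⟩

end

end Cfsg.Agent.BT
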